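import Cfsg.Agent.H12.ES3

/-! Faithful representations of extraspecial 2-groups and realisation of automorphisms. -/

set_option autoImplicit false
open Cfsg Subgroup Module
open scoped commutatorElement

namespace H12

/-- The sign of an element of `ZMod 2`. -/
def sg (F : Type*) [Field F] (a : ZMod 2) : F := if a = 0 then 1 else -1

variable {F : Type*} [Field F]

@[simp] theorem sg_zero : sg F 0 = 1 := if_pos rfl
@[simp] theorem sg_one : sg F 1 = -1 := if_neg (by decide)

theorem sg_add (a b : ZMod 2) : sg F (a + b) = sg F a * sg F b := by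
  rcases zmod_two_cases a with rfl | rfl <;> rcases zmod_two_cases b with rfl | rfl <;>
    simp [two_add_self]

theorem sg_eq_one (h2 : (2 : F) ≠ 0) {a : ZMod 2} (h : sg F a = 1) : a = 0 := by
  rcases zmod_two_cases a with rfl | rfl
  · rfl
  · exact absurd (by rw [sg_one] at h; linear_combination -h) h2

namespace QG
variable {V : Type*} [AddCommGroup V] [Module (ZMod 2) V] {B : V →ₗ[ZMod 2] V →ₗ[ZMod 2] ZMod 2}
  {M : Type*} [AddCommGroup M] [Module F M]

theorem equiv_zc {V' : Type*} [AddCommGroup V'] [Module (ZMod 2) V']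
    {B' : V' →ₗ[ZMod 2] V' →ₗ[ZMod 2] ZMod 2} (h : ND B) (h' : ND B') (φ : QG B ≃* QG B') :
    φ (zc B) = zc B' := by
  have h1 : φ (zc B) ∈ center (QG B') := mem_center_iff.2 fun g => by
    obtain ⟨g, rfl⟩ := φ.surjective g
    rw [← map_mul, ← map_mul, mem_center_iff.1 (isES h).central]
  have h2 := (mem_center h' _).1 h1
  rcases zmod_two_cases (φ (zc B)).a with h3 | h3
  · exact absurd ((map_eq_one_iff φ φ.injective).1 (QG.ext h2 h3)) zc_ne_one
  · exact QG.ext h2 h3

theorem rep_central (π : QG B →* End F M) (hz : π (zc B) = -1) (a : ZMod 2) :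
    π ⟨0, a⟩ = sg F a • 1 := by
  rcases zmod_two_cases a with rfl | rfl
  · rw [sg_zero, one_smul]; exact map_one π
  · rw [sg_one, neg_smul, one_smul]; exact hz

theorem rep_eq (π : QG B →* End F M) (hz : π (zc B) = -1) (x : QG B) :
    π x = sg F x.a • π ⟨x.v, 0⟩ := by
  have : x = ⟨x.v, 0⟩ * ⟨0, x.a⟩ := by ext <;> simp
  conv_lhs => rw [this, map_mul, rep_central π hz, mul_smul_comm, mul_one]

theorem rep_conj (π : QG B →* End F M) (hz : π (zc B) = -1) (x y : QG B) :
    π y * π x * π y⁻¹ = sg F (B x.v y.v + B y.v x.v) • π x := by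
  have : y * x * y⁻¹ = ⁅y, x⁆ * x := by rw [commutatorElement_def]; group
  rw [← map_mul, ← map_mul, this, comm_eq, map_mul, rep_central π hz, smul_mul_assoc, one_mul,
    add_comm]

theorem rep_injective (h : ND B) (h2 : (2 : F) ≠ 0) [Nontrivial M] (π : QG B →* End F M)
    (hz : π (zc B) = -1) : Function.Injective π :=
  (injective_iff_map_eq_one _).2 fun x hx => by
    have key : ∀ a, sg F a • (1 : End F M) = 1 → a = 0 := fun a ha =>
      sg_eq_one h2 (smul_left_injective F (one_ne_zero (α := End F M)) (ha.trans (one_smul _ _).symm))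
    have h1 : x.v = 0 := h _ fun v => key _ (by
      have := rep_conj π hz x ⟨v, 0⟩
      rw [hx, mul_one, ← map_mul, mul_inv_cancel, map_one] at this
      exact this.symm)
    have h3 : x = ⟨0, x.a⟩ := QG.ext h1 rfl
    rw [h3, rep_central π hz] at hx
    exact QG.ext h1 (key _ hx)

theorem rep_linInd [Fintype V] (h : ND B) (h2 : (2 : F) ≠ 0) [Nontrivial M] (π : QG B →* End F M)
    (hz : π (zc B) = -1) : LinearIndependent F fun v : V => π ⟨v, 0⟩ := by
  let χ : V → (QG B →* F) := fun v =>
    { toFun := fun y => sg F (B v y.v + B y.v v)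
      map_one' := by simp
      map_mul' := fun x y => by
        rw [← sg_add]; simp only [mul_v, map_add, LinearMap.add_apply]; congr 1; ring }
  have hχ : Function.Injective χ := fun u v huv => by
    have : u + v = 0 := h _ fun w => sg_eq_one h2 (by
      have h1 : sg F (B u w + B w u) = sg F (B v w + B w v) := DFunLike.congr_fun huv ⟨w, 0⟩
      have : B (u + v) w + B w (u + v) = (B u w + B w u) + (B v w + B w v) := by
        simp only [map_add, LinearMap.add_apply]; ring
      rw [this, sg_add, h1, ← sg_add, two_add_self, sg_zero])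
    rw [← two_neg v]; exact eq_neg_of_add_eq_zero_left this
  have hl := (linearIndependent_monoidHom (QG B) F).comp χ hχ
  rw [Fintype.linearIndependent_iff] at hl ⊢
  intro c hc v
  have hne : π ⟨v, 0⟩ ≠ 0 := fun e => by
    have := congrArg (· * π ⟨v, 0⟩⁻¹) e
    simp only [← map_mul, mul_inv_cancel, map_one, zero_mul] at this
    exact one_ne_zero this
  obtain ⟨l, hl0⟩ := Module.Projective.exists_dual_ne_zero F hne
  have := hl (fun u => c u * l (π ⟨u, 0⟩)) (funext fun y => by
    have h1 := congrArg (fun T => l (π y * T * π y⁻¹)) hc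
    simp only [Finset.mul_sum, Finset.sum_mul, mul_smul_comm, smul_mul_assoc, rep_conj π hz,
      map_sum, map_smul, mul_zero, zero_mul, map_zero, smul_eq_mul] at h1
    simp only [Finset.sum_apply, Pi.smul_apply, Function.comp, smul_eq_mul, Pi.zero_apply]
    rw [← h1]
    exact Finset.sum_congr rfl fun u _ => by
      show _ * sg F (B u y.v + B y.v u) = _
      ring) v
  exact (mul_eq_zero.1 this).resolve_right hl0

theorem exists_intertwiner [Finite V] (h : ND B) (h2 : (2 : F) ≠ 0) [Nontrivial M]
    [FiniteDimensional F M] (π : QG B →* End F M) (hz : π (zc B) = -1)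
    (hd : Nat.card V = finrank F M * finrank F M) :
    (∀ φ : MulAut (QG B), ∃ T : (End F M)ˣ, ∀ x, T.val * π x * T⁻¹.val = π (φ x)) ∧
      ∀ T : End F M, (∀ x, π x * T = T * π x) → ∃ c : F, T = c • 1 := by
  have := Fintype.ofFinite V
  let b := basisOfLinearIndependentOfCardEqFinrank (rep_linInd h h2 π hz) (by
    rw [← Nat.card_eq_fintype_card, hd, Module.finrank_linearMap])
  have hb : ∀ v, b v = π ⟨v, 0⟩ := fun v =>
    congrFun (coe_basisOfLinearIndependentOfCardEqFinrank _ _) v
  constructor
  · intro φ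
    let Φ : End F M →ₗ[F] End F M := b.constr F fun v => π (φ ⟨v, 0⟩)
    have hΦ : ∀ x, Φ (π x) = π (φ x) := fun x => by
      have : x = ⟨x.v, 0⟩ * ⟨0, x.a⟩ := by ext <;> simp
      rw [rep_eq π hz x, map_smul, ← hb, Basis.constr_basis]
      conv_rhs => rw [this, map_mul, aut_central h, map_mul, rep_central π hz, mul_smul_comm, mul_one]
    have hmul : ∀ S T, Φ (S * T) = Φ S * Φ T := by
      have : (LinearMap.mul F (End F M)).compr₂ Φ = (LinearMap.mul F (End F M)).compl₁₂ Φ Φ :=
        b.ext fun u => b.ext fun v => by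
          simp only [LinearMap.compr₂_apply, LinearMap.compl₁₂_apply, LinearMap.mul_apply', hb,
            ← map_mul, hΦ]
      exact fun S T => LinearMap.congr_fun (LinearMap.congr_fun this S) T
    let Ψ : End F M →ₐ[F] End F M := AlgHom.ofLinearMap Φ (by
      simpa only [map_one] using hΦ 1) hmul
    have hs : Function.Surjective Φ := LinearMap.range_eq_top.1 (top_le_iff.1 (by
      rw [← b.span_eq, Submodule.span_le]
      rintro _ ⟨v, rfl⟩
      exact ⟨π (φ.symm ⟨v, 0⟩), by rw [hΦ, hb, MulEquiv.apply_symm_apply]⟩))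
    obtain ⟨T, hT⟩ := (AlgEquiv.ofBijective Ψ
      ⟨LinearMap.injective_iff_surjective.2 hs, hs⟩).eq_linearEquivConjAlgEquiv
    exact ⟨LinearMap.GeneralLinearGroup.ofLinearEquiv T, fun x =>
      ((DFunLike.congr_fun hT (π x)).symm.trans (hΦ x))⟩
  · intro T hT
    have h1 : LinearMap.mulRight F T = LinearMap.mulLeft F T := b.ext fun v => by
      simp [hb, hT]
    obtain ⟨c, hc⟩ := Algebra.mem_bot.1 (Algebra.IsCentral.out (K := F) (D := End F M)
      (Subalgebra.mem_center_iff.2 fun S => LinearMap.congr_fun h1 S))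
    exact ⟨c, by rw [← hc, Algebra.algebraMap_eq_smul_one]⟩

end QG

/-- The Schrödinger representation of the plus-type group. -/
def repPlus (F : Type*) [Field F] (n : ℕ) : QG (bPlus n) →* End F ((Fin n → ZMod 2) → F) where
  toFun x :=
    { toFun := fun f t => sg F (x.a + ∑ i, t i * x.v (.inr i)) * f (t + fun i => x.v (.inl i))
      map_add' := fun f g => by ext; simp [mul_add]
      map_smul' := fun c f => by ext; simp [mul_left_comm] }
  map_one' := by
    refine LinearMap.ext fun f => funext fun t => ?_
    simp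
    exact congrArg f (add_zero t)
  map_mul' x y := by
    refine LinearMap.ext fun f => funext fun t => ?_
    simp only [QG.mul_a, QG.mul_v, End.mul_apply, LinearMap.coe_mk, AddHom.coe_mk, ← mul_assoc,
      ← sg_add, bPlus_apply, Pi.add_apply, mul_add, add_mul, Finset.sum_add_distrib]
    congr 2
    · ring
    · ext; simp [add_assoc]

theorem repPlus_zc (n : ℕ) : repPlus F n (QG.zc _) = -1 := by
  refine LinearMap.ext fun f => funext fun t => ?_
  simp [repPlus]
  exact congrArg f (add_zero t)

end H12
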