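import Cfsg.Agent.H12.BG2
import Cfsg.Agent.H4.FF5
import Cfsg.Agent.H1.Super
import Cfsg.Agent.H2.BG26
import Cfsg.Agent.S0617

/-! Failure of the Thompson factorization for the abelian-version Thompson subgroup, `p = 2`. -/

set_option autoImplicit false

namespace H12.JA

open Subgroup Cfsg H16 H12.BG
open H15 hiding card_cj cent_anti cent_bot cent_comm cent_le_cent1 cent_le_norm cent_sup cent_zpowers cj_bot cj_cent cj_cj_inv cj_comm cj_eq_bot cj_eq_iff cj_eq_top cj_inf cj_inj cj_inv_cj cj_le_cj cj_le_iff cj_le_of_mem cj_lt_cj cj_mono cj_norm cj_one cj_sup cj_top comm_le_left comm_le_right comm_of_cyclic comm_of_le comm_sup le_cj_iff mem_cent mem_cent1 mem_cj mem_norm_of_cj_le norm_bot norm_top relIndex_cj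
open scoped commutatorElement MatrixGroups

variable {G : Type*} [Group G] {A B H K V W : Subgroup G} {a : G}

def vv : Fin 3 → Fin 2 → ZMod 2 := ![![1, 0], ![0, 1], ![1, 1]]

def mm (σ : Equiv.Perm (Fin 3)) : SL(2, ZMod 2) :=
  ⟨!![vv (σ 0) 0, vv (σ 1) 0; vv (σ 0) 1, vv (σ 1) 1], by revert σ; decide⟩

theorem sl2_equiv : Nonempty (SL(2, ZMod 2) ≃* Equiv.Perm (Fin 3)) := by
  let f : Equiv.Perm (Fin 3) →* SL(2, ZMod 2) := MonoidHom.mk' mm (by decide)
  have hf : Function.Bijective f := by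
    refine ⟨?_, ?_⟩
    · show Function.Injective mm
      decide
    · show Function.Surjective mm
      decide
  exact ⟨(MulEquiv.ofBijective f hf).symm⟩

theorem prod_equiv [Finite G] {ι : Type*} [Finite ι] (E : ι → Subgroup G) {Y : Type*} [Group Y]
    (h1 : ∀ i, H ≤ N[E i]) (h2 : ∀ i, Nonempty (E i ≃* Y)) (h3 : iSupIndep E)
    (h4 : ⨆ i, E i = H) : Nonempty (H ≃* (Fin (Nat.card ι) → Y)) := by
  classical
  haveI := Fintype.ofFinite ι
  have hle : ∀ i, E i ≤ H := fun i => h4 ▸ le_iSup E i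
  have hcomm : Pairwise fun i j : ι => ∀ x y : G, x ∈ E i → y ∈ E j → Commute x y := by
    intro i j hne x y hx hy
    exact (mem_cent.1 (cent_of_inf_bot ((hle i).trans (h1 j)) ((hle j).trans (h1 i))
      (disjoint_iff.1 (h3.pairwiseDisjoint hne)) hx) y hy).symm
  have e1 := MonoidHom.ofInjective (injective_noncommPiCoprod_of_iSupIndep (hcomm := hcomm) h3)
  rw [noncommPiCoprod_range, h4] at e1
  exact ⟨e1.symm.trans ((MulEquiv.piCongrRight fun i => (h2 i).some).trans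
    (MulEquiv.arrowCongr (Finite.equivFin ι) (MulEquiv.refl Y)))⟩

theorem sq_step [Finite G] (ha : IsPGroup 2 (zpowers a)) (W : Subgroup G) : EA[2] W →
    a ∈ N[W] → W ⊓ C1[a ^ 2] ≤ C1[a] → W ≤ C1[a] := by
  haveI : Fact (Nat.Prime 2) := ⟨Nat.prime_two⟩
  induction W using ind_down with
  | h W ih =>
  intro hW hn h
  by_cases h0 : W = ⊥
  · rw [h0]; exact bot_le
  have hlt := H2.comm_lt_of_pgroup (pg_iff.1 (ea_pg hW)) ha (zpowers_le.2 hn) h0
  have h1 := ih _ hlt (ea_of_le hW hlt.le)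
    (norm_comm (zpowers_le.2 hn) (le_norm _) (mem_zpowers a))
    ((inf_le_inf_right _ hlt.le).trans h)
  intro v hv
  refine h (mem_inf.2 ⟨hv, mem_cent1.2 ?_⟩)
  have hc : ⁅v, a⁆ ∈ ⁅W, zpowers a⁆ := commutator_mem_commutator hv (mem_zpowers a)
  have e1 := mem_cent1.1 (h1 hc)
  have e2 := hW.2 _ (hlt.le hc)
  have e3 : v * a = ⁅v, a⁆ * a * v := by rw [commutatorElement_def]; group
  calc v * a ^ 2 = (v * a) * a := by rw [sq, mul_assoc]
    _ = ⁅v, a⁆ * a * (v * a) := by rw [commutatorElement_def]; group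
    _ = ⁅v, a⁆ * (a * ⁅v, a⁆) * a * v := by rw [e3]; simp only [mul_assoc]
    _ = ⁅v, a⁆ ^ 2 * a ^ 2 * v := by rw [← e1]; simp only [sq, mul_assoc]
    _ = a ^ 2 * v := by rw [e2, one_mul]

theorem elem_of_weak [Finite G] (h : H4.FFHyp 2 V H) (A : Subgroup G) : A ≤ H →
    IsMulCommutative A → IsPGroup 2 A → (∀ B ≤ A, H4.meas V B ≤ H4.meas V A) →
    ∀ x ∈ A, x ^ 2 = 1 := by
  haveI : Fact (Nat.Prime 2) := ⟨Nat.prime_two⟩
  induction A using ind_down with
  | h A ih =>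
  intro hAH hab hAp hm
  by_cases h0 : A = ⊥
  · intro x hx; rw [eq_one_of_mem_bot h0 hx, one_pow]
  set K := H5.oppOf 2 H with hK
  have hKH : K ≤ H := H5.oppOf_le 2 H
  have hAK : A ≤ N[K] := hAH.trans (H5.self_le_normalizer_oppOf 2 H)
  have hKc : (Nat.card K).Coprime 2 := H5.coprime_card_oppOf 2 H
  have hcop := H1.IsPGroup.coprime_card hAp hKc
  obtain ⟨B, hB, a, ha, hBa, hne⟩ : ∃ B ≤ A, ∃ a ∈ A, B ⊔ zpowers a = A ∧ ¬ K ⊓ C[B] ≤ C[A] := by
    by_contra hne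
    push Not at hne
    exact h0 (h.not_le_cent hAH hAp (cent_symm (H1.le_of_forall_cocyclic_centralizer_le hAK hcop
      fun B hB ⟨a, ha, e⟩ => hne B hB a ha e)))
  have hAB : A ≤ C[B] := comm_cent hab le_rfl hB
  have hU : ¬ V ⊓ C[B] ≤ C[A] := by
    intro hU
    apply hne
    set D := K ⊓ C[B] with hD
    have hAD : A ≤ N[D] := norm_inf hAK (norm_of_le hAB)
    have hQD : ⁅D, A⁆ ≤ D := comm_le_left hAD
    have hQH : ⁅D, A⁆ ≤ H := (hQD.trans inf_le_left).trans hKH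
    have hDU : D ≤ N[(V ⊓ C[B] : Subgroup G)] :=
      norm_inf ((inf_le_left.trans hKH).trans h.hHV) (norm_of_le inf_le_right)
    refine comm_eq_bot.1 (H4.eq_bot_of_le_cent h.hf hQH ?_)
    refine H1.thompson_PQ (hAp.to_le hB) (H5.coprime_of_le hKc (hQD.trans inf_le_left))
      (cent_symm (hQD.trans inf_le_right)) V (H4.elemAb_isPGroup h.hV) ((hB.trans hAH).trans h.hHV)
      (hQH.trans h.hHV) (cent_symm ?_)
    exact (commutator_mono le_rfl (cent_symm hU)).trans (comm_le_right (norm_cent hDU))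
  have h2 : ¬ (V ⊓ C[B]) ⊓ C1[a ^ 2] ≤ C1[a] := fun h2 => hU (by
    rw [← hBa, cent_sup, cent_zpowers]
    exact le_inf inf_le_right (sq_step (hAp.to_le (zpowers_le.2 ha)) _ (ea_of_le h.hV inf_le_left)
      (norm_inf (hAH.trans h.hHV) (norm_of_le hAB) ha) h2))
  set B1 := B ⊔ zpowers (a ^ 2) with hB1
  have hB1A : B1 ≤ A := sup_le hB (zpowers_le.2 (A.pow_mem ha 2))
  have hC1 : V ⊓ C[B1] = (V ⊓ C[B]) ⊓ C1[a ^ 2] := by rw [hB1, cent_sup, cent_zpowers, inf_assoc]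
  have haB : a ∉ B1 := fun h3 => h2 (hC1 ▸ inf_le_right.trans (cent_le_cent1 h3))
  have hsup : B1 ⊔ zpowers a = A :=
    le_antisymm (sup_le hB1A (zpowers_le.2 ha)) (hBa ▸ sup_le_sup_right le_sup_left _)
  have hc : Nat.card A = 2 * Nat.card B1 := by
    rw [← hsup]
    exact H9.card_sup_zpowers Nat.prime_two (comm_norm hab le_rfl hB1A ha) haB
      (mem_sup_right (mem_zpowers _))
  have hlt : B1 < A := lt_of_le_of_ne hB1A fun e => haB (e ▸ ha)
  have hm1 : H4.meas V A ≤ H4.meas V B1 := by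
    have h1 : V ⊓ C[A] < V ⊓ C[B1] := lt_of_le_of_ne (inf_le_inf_left _ (cent_anti hB1A))
      fun e => h2 (by rw [← hC1, ← e]; exact inf_le_right.trans (cent_le_cent1 ha))
    have h3 := H4.mul_card_le_of_lt ((H4.elemAb_isPGroup h.hV).to_le inf_le_left) h1
    rw [H4.meas_def, H4.meas_def, hc, mul_comm 2, mul_assoc]
    exact Nat.mul_le_mul_left _ h3
  have hw : ∀ B ≤ B1, H4.meas V B ≤ H4.meas V B1 := fun B hB => (hm B (hB.trans hB1A)).trans hm1
  have he := ih B1 hlt (hB1A.trans hAH) (comm_of_le hab hB1A) (hAp.to_le hB1A) hw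
  have hbest : IsBestOffenderOn 2 V B1 := ⟨hw, by
    rw [der_eq_bot.2 (comm_of_le hab hB1A)]; exact bot_le, fun x hx => by
    rw [he x hx]; exact one_mem _⟩
  have hgen := h.le_sSup_tv B1 (hB1A.trans hAH) hbest
  intro x hx
  have hx2 : x ^ 2 ∈ B1 := by
    rw [← hsup] at hx
    obtain ⟨b, hb, _, ⟨k, rfl⟩, rfl⟩ := (mem_sup_l (comm_norm hab (zpowers_le.2 ha) hB1A)).1 hx
    have hcm : Commute b (a ^ k) :=
      (mem_cent.1 (comm_iff.1 hab (A.zpow_mem ha k)) b (hB1A hb))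
    simp only
    rw [hcm.mul_pow, ← zpow_natCast (a ^ k), ← zpow_mul, mul_comm k, zpow_mul, zpow_natCast]
    exact B1.mul_mem (B1.pow_mem hb 2) (B1.zpow_mem (mem_sup_right (mem_zpowers _)) k)
  have hR : A ≤ N[(K ⊓ C1[x ^ 2] : Subgroup G)] :=
    norm_inf hAK (norm_cent1 (le_cent1.2 (comm_iff.1 hab (A.pow_mem hx 2))))
  have h5 := H1.sSup_induction (fun X => X ≤ A ∧ ⁅K, X⁆ ≤ K ⊓ C1[x ^ 2])
    ⟨bot_le, by rw [commutator_bot_right]; exact bot_le⟩
    (fun X Y hX hY => ⟨sup_le hX.1 hY.1, comm_sup_le hX.2 hY.2 (hX.1.trans hR) (hY.1.trans hR)⟩)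
    {B | B ≤ B1 ∧ H4.Tv 2 V B} (by
      rintro T ⟨t1, t2⟩
      have t3 := t1.trans hB1A
      refine ⟨t3, le_inf (comm_le_left (t3.trans hAK)) (le_cent1.2 ?_)⟩
      haveI : Fact (Nat.Prime 3) := ⟨Nat.prime_three⟩
      exact H1.pow_mem_centralizer_of_card_prime (p := 3) (h.card_comm_oppOf (t3.trans hAH) t2)
        (norm_comm hAK (comm_norm hab le_rfl t3) hx))
  have h6 : K ≤ C1[x ^ 2] := by
    rw [← H1.commutator_sup_centralizer (hB1A.trans hAK)
      (H1.IsPGroup.coprime_card (hAp.to_le hB1A) hKc) (Or.inl (sol_of_comm (comm_of_le hab hB1A)))]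
    exact sup_le ((commutator_mono le_rfl hgen).trans (h5.2.trans inf_le_right))
      (inf_le_right.trans (cent_le_cent1 hx2))
  exact eq_one_of_mem_bot (h.not_le_cent (zpowers_le.2 (hAH (A.pow_mem hx 2)))
    (hAp.to_le (zpowers_le.2 (A.pow_mem hx 2))) (zpowers_le.2 (le_cent1.1 h6))) (mem_zpowers _)

theorem weak_of_max [Finite G] {T : Subgroup G} (hA : A ∈ H4.maxAb 0 T) (hW : W ≤ T)
    (hab : IsMulCommutative W) (hB : B ≤ A) : H4.meas W B ≤ H4.meas W A := by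
  have hAc : IsMulCommutative A := H4.elemAb_zero_iff.1 (H4.maxAb_elemAb hA)
  have h1 : IsMulCommutative ↥(B ⊔ (W ⊓ C[B])) :=
    comm_sup (comm_of_le hAc hB) (comm_of_le hab inf_le_left) (cent_symm inf_le_right)
  have h2 := H4.maxAb_card_le hA (sup_le (hB.trans (H4.maxAb_le hA)) (inf_le_left.trans hW))
    (H4.elemAb_zero_iff.2 h1)
  have h3 := card_sup_mul_inf (H := B) (K := W ⊓ C[B]) (Or.inr (norm_of_cent inf_le_right))
  rw [H4.meas_def, H4.meas_def, ← h3]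
  exact Nat.mul_le_mul h2 (card_le (le_inf (inf_le_right.trans inf_le_left)
    (inf_le_left.trans (comm_cent hAc hB le_rfl))))

theorem best_of_weak [Finite G] [V.Normal] (h : H4.FFHyp 2 (H4.hV V) (H.map (H4.hφ V)))
    (hAH : A ≤ H) (hab : IsMulCommutative A) (hp : IsPGroup 2 A)
    (hm : ∀ B ≤ A, H4.meas V B ≤ H4.meas V A) :
    IsBestOffenderOn 2 (H4.hV V) (A.map (H4.hφ V)) := by
  have h1 : ∀ B ≤ A.map (H4.hφ V), H4.meas (H4.hV V) B ≤ H4.meas (H4.hV V) (A.map (H4.hφ V)) := by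
    intro B hB
    have e : (A ⊓ B.comap (H4.hφ V)).map (H4.hφ V) = B := by
      rw [H5.map_inf_comap, inf_eq_right.2 hB]
    have e2 : (A ⊓ B.comap (H4.hφ V)) ⊓ C[V] = A ⊓ C[V] := by
      rw [inf_assoc, ← H4.ker_hφ, inf_eq_right.2 (ker_le_comap _ _)]
    have := hm _ (inf_le_left : A ⊓ B.comap (H4.hφ V) ≤ A)
    rw [← H4.meas_map_hφ, ← H4.meas_map_hφ A, e, e2] at this
    exact Nat.le_of_mul_le_mul_right this Nat.card_pos
  have h2 : IsMulCommutative (A.map (H4.hφ V)) := inferInstance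
  refine ⟨h1, by rw [der_eq_bot.2 h2]; exact bot_le, fun x hx => ?_⟩
  rw [elem_of_weak h _ (map_mono hAH) h2 (hp.map _) h1 x hx]
  exact one_mem _

theorem pCore_congr {U U' : Subgroup G} [U.Normal] [U'.Normal] (e : U = U')
    (h : pCore 2 (G ⧸ U) = ⊥) : pCore 2 (G ⧸ U') = ⊥ := by subst e; exact h

theorem setup [Finite G] [Group.IsSolvable G] (hF : fittingSubgroup G = pCore 2 G)
    (T : Sylow 2 G) : ∃ (W : Subgroup G) (_ : W.Normal), EA[2] W ∧
      C[W] = (C[((T : Subgroup G) ⊓ C[(T : Subgroup G)] : Subgroup G)]).normalCore ∧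
      pCore 2 (G ⧸ C[W]) = ⊥ := by
  haveI : Fact (Nat.Prime 2) := ⟨Nat.prime_two⟩
  set Z : Subgroup G := (T : Subgroup G) ⊓ C[(T : Subgroup G)] with hZ
  set V := normalClosure (Z : Set G) with hV
  have hZV : Z ≤ V := le_normalClosure
  have e1 : C[V] = (C[Z]).normalCore := by
    refine le_antisymm (normal_le_normalCore.2 (cent_anti hZV)) (cent_symm ?_)
    exact normalClosure_le_normal (cent_symm (normalCore_le _))
  have hO : pCore 2 G ≤ T := (H1.isPGroup_pCore 2).le_sylow_of_normal T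
  have hVO : V ≤ pCore 2 G ⊓ C[pCore 2 G] := by
    have h1 : Z ≤ C[pCore 2 G] := inf_le_right.trans (cent_anti hO)
    refine normalClosure_le_normal (le_inf (h1.trans ?_) h1)
    rw [← hF]; exact H1.centralizer_fitting_le
  have hab : IsMulCommutative V := comm_of_le (comm_center _) hVO
  have hVp : Pg[2] V := pg_iff.2 ((H1.isPGroup_pCore 2).to_le (hVO.trans inf_le_left))
  have h0 : pCore 2 (G ⧸ C[V]) = ⊥ := by
    refine H4.pCore_quotient_centralizer_eq_bot ((closure_le _).2 fun x hx => ?_)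
    obtain ⟨z, hz, hc⟩ := Group.mem_conjugatesOfSet_iff.1 hx
    obtain ⟨g, rfl⟩ := isConj_iff.1 hc
    refine mem_iSup_of_mem (g • T) (mem_inf.2 ⟨subset_closure hx, ?_⟩)
    have : ((g • T : Sylow 2 G) : Subgroup G) = (T : Subgroup G) :^ g := rfl
    rw [this, cent_cj]
    exact cj_mem hz.2
  haveI : (Om[2] V).Normal := H4.omegaOne_normal V
  have e2 : C[Om[2] V] = C[V] := by
    refine le_antisymm ?_ (cent_anti (om_le _ _))
    have h1 : IsPGroup 2 ((C[Om[2] V]).map (QuotientGroup.mk' C[V])) := by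
      refine pg_iff.1 fun q hq hd => ?_
      by_contra hq2
      haveI := Fact.mk hq
      obtain ⟨Q, hQ⟩ := sy_exists q C[Om[2] V]
      rw [H1.card_map_mk'_eq_relIndex] at hd
      exact sy_not_dvd hQ hq (hd.trans (relIndex_dvd_of_le_left _ (cop_abel_cent_om hab hVp
        (le_norm_normal _) ((hl_pi hQ).coprime (hVp.compl_of_ne (Ne.symm hq2))) hQ.1)))
    haveI := Subgroup.Normal.map (inferInstance : (C[Om[2] V]).Normal) _
      (QuotientGroup.mk'_surjective C[V])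
    have h2 := H1.le_pCore h1
    rwa [h0, le_bot_iff, Subgroup.map_eq_bot_iff, QuotientGroup.ker_mk'] at h2
  exact ⟨Om[2] V, inferInstance, ea_om hab, e2.trans e1, pCore_congr e2.symm h0⟩

theorem part1 [Finite G] (T : Sylow 2 G) :
    normalClosure (thompsonSubgroupAOf (T : Subgroup G) : Set G) ⊔
      N[thompsonSubgroupAOf (T : Subgroup G)] = ⊤ := by
  haveI : Fact (Nat.Prime 2) := ⟨Nat.prime_two⟩
  rw [H4.thompsonSubgroupAOf_eq]
  set Y := normalClosure (thompsonSubgroupOf 0 (T : Subgroup G) : Set G)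
  have h1 : Sy[2] ((T : Subgroup G) ⊓ Y) Y := hl_inf (sy_top_of_sylow T) le_top (le_norm_normal _)
  have h2 := sy_frattini_sup h1 le_top (le_norm_normal ⊤)
  refine top_le_iff.1 (h2.ge.trans (sup_le_sup_left (inf_le_right.trans ?_) _))
  rw [← H4.thompsonOf_eq_of_le (le_inf (H4.thompsonOf_le _) le_normalClosure) inf_le_left]
  exact H4.normalizer_le_normalizer_thompsonOf _

theorem part2 [Finite G] [Group.IsSolvable G] (T : Sylow 2 G) [W.Normal] (hW : EA[2] W)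
    (hO : pCore 2 (G ⧸ C[W]) = ⊥) {Y : Subgroup G}
    (hY : Y = normalClosure (thompsonSubgroupAOf (T : Subgroup G) : Set G)) (hne : ¬ Y ≤ C[W]) :
    ∃ n : ℕ, 1 ≤ n ∧ ∃ ψ : Y →* (Fin n → Equiv.Perm (Fin 3)), Function.Surjective ψ ∧
      ∀ d : Y, ψ d = 1 ↔ (d : G) ∈ C[W] := by
  haveI : Fact (Nat.Prime 2) := ⟨Nat.prime_two⟩
  haveI hYn : Y.Normal := hY ▸ normalClosure_normal
  have h := H4.ffHyp_map_hφ (H1.isPSolvable_of_isSolvable 2 inferInstance) hW hO Y
  have hH1 : Y.map (H4.hφ W) ≠ ⊥ := by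
    rwa [Ne, Subgroup.map_eq_bot_iff, H4.ker_hφ]
  have hgen : Y.map (H4.hφ W) = ⨆ A : {A // A ≤ Y.map (H4.hφ W) ∧
      IsBestOffenderOn 2 (H4.hV W) A}, (A : Subgroup (H4.Hol W)) := by
    refine le_antisymm (map_le_iff_le_comap.2 (hY.le.trans ((closure_le _).2 fun x hx => ?_)))
      (iSup_le fun A => A.2.1)
    obtain ⟨z, hz, hc⟩ := Group.mem_conjugatesOfSet_iff.1 hx
    obtain ⟨g, rfl⟩ := isConj_iff.1 hc
    have h1 : thompsonSubgroupOf 0 ((T : Subgroup G) :^ g) ≤ Y := by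
      rw [← H4.map_thompsonOf_of_injective _ (MulAut.conj g).injective, ← cj_normal (N := Y) g,
        ← H4.thompsonSubgroupAOf_eq]
      exact cj_mono g (hY ▸ le_normalClosure)
    have h2 : g * z * g⁻¹ ∈ thompsonSubgroupOf 0 ((T : Subgroup G) :^ g) := by
      rw [← H4.map_thompsonOf_of_injective _ (MulAut.conj g).injective,
        ← H4.thompsonSubgroupAOf_eq]
      exact cj_mem hz
    refine H4.thompsonOf_le_iff.2 (fun A hA => map_le_iff_le_comap.1 ?_) h2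
    have hT := hl_cj_top (sy_top_of_sylow T) g
    have hAY := (H4.le_thompsonOf hA).trans h1
    exact le_iSup (fun A : {A // A ≤ Y.map (H4.hφ W) ∧ IsBestOffenderOn 2 (H4.hV W) A} =>
      (A : Subgroup (H4.Hol W))) ⟨A.map (H4.hφ W), map_mono hAY, best_of_weak h hAY
        (H4.elemAb_zero_iff.1 (H4.maxAb_elemAb hA)) ((sy_pg hT).to_le (H4.maxAb_le hA))
        fun B hB => weak_of_max hA (le_hl_of_norm hT le_top (le_norm_normal _) (ea_pg hW)) hW.1 hB⟩
  have hS1 : C[pPrimeCore 2 ↥(Y.map (H4.hφ W))] ≤ pPrimeCore 2 ↥(Y.map (H4.hφ W)) := by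
    intro x hx
    have h1 : (x : H4.Hol W) ∈ H5.oppOf 2 (Y.map (H4.hφ W)) := by
      refine h.hK (mem_inf.2 ⟨x.2, mem_cent.2 ?_⟩)
      rintro _ ⟨y, hy, rfl⟩
      exact congrArg Subtype.val (mem_cent.1 hx y hy)
    obtain ⟨y, hy, e⟩ := h1
    rwa [← Subtype.ext e]
  obtain ⟨-, h1, h2, h3, -⟩ := Cfsg.Agent.S0617.result _ _ h.hV h.hHV h.hf hS1 hgen hH1
  obtain ⟨e⟩ := prod_equiv _ (fun E => (h1 E).1)
    (fun E => ⟨(h1 E).2.1.some.trans sl2_equiv.some⟩) h2 h3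
  refine ⟨_, ?_, e.toMonoidHom.comp ((H4.hφ W).subgroupMap Y),
    e.surjective.comp ((H4.hφ W).subgroupMap_surjective Y), fun d => ?_⟩
  · refine Nat.card_pos_iff.2 ⟨?_, inferInstance⟩
    by_contra h4
    rw [not_nonempty_iff] at h4
    exact hH1 (h3.symm.trans (iSup_of_empty _))
  · rw [← H4.ker_hφ, MonoidHom.mem_ker, MonoidHom.comp_apply, MulEquiv.coe_toMonoidHom,
      e.map_eq_one_iff, Subtype.ext_iff]
    rfl

end H12.JA
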