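import Cfsg.Agent.H11.RIc
import Cfsg.Agent.H11.Z1

/-! Root involutions with a disconnected commuting graph. -/

set_option autoImplicit false
set_option linter.unusedSectionVars false

open Subgroup Cfsg H16 H16.H11 Relation
open scoped commutatorElement

namespace H12.RD

universe u

variable {G : Type*} [Group G] {D : Set G} {a a' b c d e g t u v w x y z : G}

theorem eq_of_sq {y z : G} (hy : Odd (orderOf y)) (hz : Odd (orderOf z)) (e : y * y = z * z) : y = z := by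
  have h : ∀ {y : G}, Odd (orderOf y) → orderOf (y * y) = orderOf y := fun {y} hy => by
    rw [← sq]; exact (Nat.coprime_two_right.2 hy).orderOf_pow
  have h1 : orderOf y = orderOf z := by rw [← h hy, e, h hz]
  obtain ⟨k, hk⟩ := hy
  have h2 : ∀ {y : G}, orderOf y = 2 * k + 1 → (y * y) ^ (k + 1) = y := fun {y} hy => by
    rw [← sq, ← pow_mul, show 2 * (k + 1) = orderOf y + 1 by omega, pow_succ, pow_orderOf_eq_one, one_mul]
  rw [← h2 hk, e, h2 (h1 ▸ hk)]

/-- `t` is the midpoint of `a` and `x` -/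
structure Mid (D : Set G) (a x t : G) : Prop where
  mem : t ∈ D
  od : Od a t
  cj : t * a * t⁻¹ = x

section
variable (h : RI D)
include h

theorem exists_mid (ha : a ∈ D) (hx : x ∈ D) (ho : Od a x) :
    ∃ t, Mid D a x t ∧ ∀ H : Subgroup G, a ∈ H → x ∈ H → t ∈ H := by
  obtain ⟨m, hm⟩ := H6.exists_sq_pow_of_odd (show Odd (orderOf (a * x)⁻¹) by rw [orderOf_inv]; exact ho.2)
  have hg : (a * x)⁻¹ ^ m ∈ zpowers (a * x) := pow_mem (inv_mem (mem_zpowers _)) m
  have g1 : (a * x)⁻¹ ^ m ≠ 1 := fun e => ho.1 (by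
    rw [e, one_mul, eq_comm, inv_eq_one] at hm
    rw [eq_inv_of_mul_eq_one_left hm, h.inv hx])
  obtain ⟨h1, h2⟩ := h.refl_mem ha hx ho hg g1
  refine ⟨_, ⟨h1, h2, ?_⟩, fun H h3 h4 => mul_mem (pow_mem (inv_mem (mul_mem h3 h4)) m) h3⟩
  rw [h.inv h1, mul_assoc _ a a, h.sq a ha, mul_one, ← mul_assoc, hm, mul_inv_rev, h.inv hx, h.inv ha,
    mul_assoc, h.sq a ha, mul_one]

theorem Mid.unique {t' : G} (m : Mid D a x t) (m' : Mid D a x t') : t = t' := by
  refine mul_left_cancel (eq_of_sq m.od.2 m'.od.2 ?_)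
  have h1 := m.cj
  have h2 := m'.cj
  rw [h.inv m.mem] at h1
  rw [h.inv m'.mem] at h2
  rw [mul_assoc, ← mul_assoc t, h1, mul_assoc, ← mul_assoc t', h2]

theorem Mid.cj' (m : Mid D a x t) : t * x * t⁻¹ = a := by
  rw [← m.cj, h.inv m.mem, ← mul_assoc, ← mul_assoc, h.sq t m.mem, one_mul, mul_assoc, h.sq t m.mem, mul_one]

theorem Mid.symm (m : Mid D a x t) : Mid D x a t := by
  refine ⟨m.mem, ?_, m.cj' h⟩
  have := m.od.cj t
  rwa [m.cj, mul_inv_cancel_right] at this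

end

section
variable (hD : IsRootInvolutionSet D)
include hD

theorem Mid.conj (m : Mid D a x t) (g : G) : Mid D (g * a * g⁻¹) (g * x * g⁻¹) (g * t * g⁻¹) :=
  ⟨hD.conj_mem t m.mem g, m.od.cj g, by rw [← m.cj]; group⟩

theorem Mid.comm_fix (m : Mid D a x t) (h1 : Commute g a) (h2 : Commute g x) : Commute g t := by
  have := m.conj hD g
  rw [cj_eq h1, cj_eq h2] at this
  exact H6.conj_eq_iff_commute.1 (this.unique (ri_of hD) m)

theorem Mid.comm_swap (m : Mid D a x t) (h1 : g * a * g⁻¹ = x) (h2 : g * g = 1) : Commute g t := by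
  have := m.conj hD g
  rw [h1, ← h1, show g * (g * a * g⁻¹) * g⁻¹ = g * g * a * (g * g)⁻¹ by group, h2, one_mul, inv_one, mul_one,
    h1] at this
  exact H6.conj_eq_iff_commute.1 (this.unique (ri_of hD) (m.symm (ri_of hD)))

theorem Mid.cent (m : Mid D a x t) (h1 : g * a * g⁻¹ = x) : Commute (t * g) a := by
  refine H6.conj_eq_iff_commute.1 ?_
  rw [show t * g * a * (t * g)⁻¹ = t * (g * a * g⁻¹) * t⁻¹ by group, h1, m.cj' (ri_of hD)]

end

/-- connected in the commuting graph -/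
def Cn (D : Set G) (a b : G) : Prop := ReflTransGen (CommAdj D) a b

theorem Cn.refl (a : G) : Cn D a a := ReflTransGen.refl

theorem Cn.trans (h1 : Cn D a b) (h2 : Cn D b c) : Cn D a c := ReflTransGen.trans h1 h2

theorem Cn.symm (h1 : Cn D a b) : Cn D b a :=
  rtg_symm (fun _ _ h => ⟨h.2.1, h.1, h.2.2.1.symm, h.2.2.2.symm⟩) h1

theorem cn_of_comm (ha : a ∈ D) (hb : b ∈ D) (hc : Commute a b) : Cn D a b := by
  by_cases e : a = b
  · exact e ▸ Cn.refl a
  · exact ReflTransGen.single ⟨ha, hb, e, hc⟩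

section
variable (hD : IsRootInvolutionSet D)
include hD

theorem Cn.cj (h1 : Cn D a b) (g : G) : Cn D (g * a * g⁻¹) (g * b * g⁻¹) :=
  rtg_lift' (fun x => g * x * g⁻¹) (fun _ _ h => .single ⟨hD.conj_mem _ h.1 g, hD.conj_mem _ h.2.1 g,
    fun e => h.2.2.1 (by simpa using e), commute_cj h.2.2.2 g⟩) h1

theorem od_of_not_cn (ha : a ∈ D) (hb : b ∈ D) (hn : ¬ Cn D a b) : Od a b := by
  have h := ri_of hD
  rcases h.cases ha hb with h1 | h1 | h1
  · exact absurd (cn_of_comm ha hb h1) hn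
  · exact h1
  · exact absurd ((cn_of_comm ha (h.v4_mem ha hb h1) (h.v4_left ha hb h1).symm).trans
      (cn_of_comm (h.v4_mem ha hb h1) hb (h.v4_right ha hb h1))) hn

/-- the stabiliser of the component of `a` -/
def St (a : G) : Subgroup G where
  carrier := {g | Cn D a (g * a * g⁻¹)}
  one_mem' := by simpa using Cn.refl a
  mul_mem' {g k} hg hk := by
    have := Cn.trans hg (Cn.cj hD hk g)
    simpa [mul_assoc] using this
  inv_mem' {g} hg := by simpa [mul_assoc] using (Cn.cj hD hg g⁻¹).symm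

theorem mem_St : g ∈ St hD a ↔ Cn D a (g * a * g⁻¹) := Iff.rfl

theorem St_eq (h1 : Cn D a b) : St hD a = St hD b := by
  ext g
  exact ⟨fun hg => h1.symm.trans (Cn.trans hg (h1.cj hD g)), fun hg => h1.trans (Cn.trans hg (h1.cj hD g).symm)⟩

theorem mem_St_of_comm (hc : Commute g a) : g ∈ St hD a := by
  rw [mem_St, cj_eq hc]; exact Cn.refl a

theorem mem_St_of_cn (h1 : Cn D a b) : b ∈ St hD a := St_eq hD h1 ▸ mem_St_of_comm hD (Commute.refl b)

theorem cn_of_mem_St (ha : a ∈ D) (hd : d ∈ D) (h1 : d ∈ St hD a) : Cn D a d := by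
  by_contra hn
  obtain ⟨t, m, ht⟩ := exists_mid (ri_of hD) ha hd (od_of_not_cn hD ha hd hn)
  exact hn (m.cj ▸ ht _ (mem_St_of_cn hD (Cn.refl a)) h1)

theorem cn_of_cent (ha : a ∈ D) (ha' : a' ∈ D) (hc : Commute a a') (hne : a ≠ a') (hC : c ∈ D)
    (h1 : Commute (a * a') c) : Cn D a c := by
  have h := ri_of hD
  by_contra hn
  have := h.cent_mul ha hC (od_of_not_cn hD ha hC hn) ((Commute.refl a).mul_left hc.symm) h1
    (by rw [hc.eq, mul_assoc, h.sq a ha, mul_one]; exact ha')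
  exact hne (by rw [eq_inv_of_mul_eq_one_left this, h.inv ha'])

theorem exists_cj_cent (hC : c ∈ D) (hd : d ∈ D) (ht : t ∈ D) (hn : ¬ Cn D c d) (h1 : Commute v c)
    (h2 : Commute v d) (h3 : Commute v t) : ∃ g, Commute g v ∧ g * c * g⁻¹ = t := by
  have h := ri_of hD
  by_cases e : Cn D c t
  · obtain ⟨s, m, -⟩ := exists_mid h hC hd (od_of_not_cn hD hC hd hn)
    obtain ⟨s', m', -⟩ := exists_mid h hd ht (od_of_not_cn hD hd ht fun e' => hn (e.trans e'.symm))
    refine ⟨s' * s, (m'.comm_fix hD h2 h3).symm.mul_left (m.comm_fix hD h1 h2).symm, ?_⟩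
    rw [← m'.cj, ← m.cj]; group
  · obtain ⟨s, m, -⟩ := exists_mid h hC ht (od_of_not_cn hD hC ht e)
    exact ⟨s, (m.comm_fix hD h1 h3).symm, m.cj⟩

/-- an involution moving a component -/
theorem exists_move (hv : v * v = 1) (hy : y ∈ D) (hn : v ∉ St hD y) :
    ∃ t ∈ D, Commute v t ∧ Commute (t * v) y ∧ ¬ Cn D y t := by
  have hy' := hD.conj_mem y hy v
  obtain ⟨t, m, -⟩ := exists_mid (ri_of hD) hy hy' (od_of_not_cn hD hy hy' hn)
  exact ⟨t, m.mem, m.comm_swap hD rfl hv, m.cent hD rfl, fun e => hn (by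
    have := mem_St_of_cn hD e
    rwa [mem_St, m.cj] at this)⟩

theorem all_St (ha : a ∈ D) (ha' : a' ∈ D) (hc : Commute a a') (hne : a ≠ a') (hy : y ∈ D)
    (hn : ¬ Cn D a y) (hw : a * a' ∈ St hD y) (hd : d ∈ D) : a * a' ∈ St hD d := by
  have h := ri_of hD
  have sq : ∀ {p q : G}, p * p = 1 → q * q = 1 → Commute p q → p * q * (p * q) = 1 := fun {p q} h1 h2 h3 => by
    rw [mul_assoc, ← mul_assoc q, ← h3.eq, mul_assoc, h2, mul_one, h1]
  have w2 := sq (h.sq a ha) (h.sq a' ha') hc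
  by_contra hn'
  obtain ⟨c, hC, h1, h2, h3⟩ := exists_move hD w2 hd hn'
  have h4 := cn_of_cent hD ha ha' hc hne hC h1
  have h5 : c * (a * a') ∉ St hD y := fun e => hn (h4.trans (cn_of_mem_St hD hy hC
    ((mul_mem_cancel_right hw).1 e)).symm)
  obtain ⟨t, ht, h6, h7, h8⟩ := exists_move hD (sq (h.sq c hC) w2 h1.symm) hy h5
  obtain ⟨g, h9, rfl⟩ := exists_cj_cent hD hC hd ht (fun e => h3 e.symm) ((Commute.refl c).mul_left h1) h2 h6
  have e : g * c * g⁻¹ * (c * (a * a')) = g * a * g⁻¹ * (g * a' * g⁻¹) := by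
    rw [← cj_eq h9, conj_mul', conj_mul', h.mul_mul hC]
  have key := fun {s : G} (hs : s ∈ D) => cn_of_cent hD (hD.conj_mem a ha g) (hD.conj_mem a' ha' g)
    (commute_cj hc g) (fun e => hne (by simpa using e)) hs
  exact h8 ((key hy (e ▸ h7)).symm.trans (key ht (e ▸ (Commute.refl _).mul_left h6)))

theorem cls_of_not_cn (ha : a ∈ D) (hx : x ∈ D) (hn : ¬ Cn D a x) : Cls D := by
  have h := ri_of hD
  intro b hb c hC
  by_cases e : Cn D b c
  · obtain ⟨y, hy, h1⟩ : ∃ y ∈ D, ¬ Cn D b y := by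
      by_contra! H
      exact hn ((H a ha).symm.trans (H x hx))
    obtain ⟨g, hg, e1⟩ := h.od_conj hb hy (od_of_not_cn hD hb hy h1)
    obtain ⟨k, hk, e2⟩ := h.od_conj hy hC (od_of_not_cn hD hy hC fun e' => h1 (e.trans e'.symm))
    exact ⟨k * g, mul_mem hk hg, by rw [← e2, ← e1]; group⟩
  · exact h.od_conj hb hC (od_of_not_cn hD hb hC e)

theorem cn_of_simple [IsSimpleGroup G] (ha : a ∈ D) (ha' : a' ∈ D) (hc : Commute a a') (hne : a ≠ a')
    (hy : y ∈ D) (hw : a * a' ∈ St hD y) : Cn D a y := by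
  by_contra hn
  have hN : (⨅ d ∈ D, St hD d).Normal := ⟨fun n hn g => by
    simp only [mem_iInf] at hn ⊢
    intro d hd
    simpa [mem_St, mul_assoc] using Cn.cj hD (hn _ (hD.conj_mem d hd g⁻¹)) g⟩
  rcases hN.eq_bot_or_eq_top with e | e
  · have : a * a' ∈ (⊥ : Subgroup G) := e ▸ by
      simp only [mem_iInf]
      exact fun d hd => all_St hD ha ha' hc hne hy hn hw hd
    exact hne (by rw [eq_inv_of_mul_eq_one_left (mem_bot.1 this), (ri_of hD).inv ha'])
  · have : y ∈ ⨅ d ∈ D, St hD d := e ▸ mem_top y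
    simp only [mem_iInf] at this
    exact hn (cn_of_mem_St hD ha hy (this a ha))

theorem odd_comp [Finite G] [IsSimpleGroup G] (ha : a ∈ D) (hx : x ∈ D) (hn : ¬ Cn D a x) :
    Odd {b | b ∈ D ∧ Cn D a b}.ncard := by
  have h := ri_of hD
  have md : ∀ y ∈ D, Cn D a (y * x * y⁻¹) → Mid D x (y * x * y⁻¹) y := fun y hy e =>
    ⟨hy, od_of_not_cn hD hx hy fun e' => hn (e.trans (Cn.symm (mem_St_of_cn hD e'))), rfl⟩
  have hb : Set.BijOn (fun y => y * x * y⁻¹) {y | y ∈ D ∧ Cn D a (y * x * y⁻¹)} {b | b ∈ D ∧ Cn D a b} := by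
    refine ⟨fun y hy => ⟨hD.conj_mem x hx y, hy.2⟩, fun y hy y' hy' e => (md y hy.1 hy.2).unique h ?_,
      fun b hb => ?_⟩
    · rw [show y * x * y⁻¹ = y' * x * y'⁻¹ from e]; exact md y' hy'.1 hy'.2
    · obtain ⟨t, m, -⟩ := exists_mid h hx hb.1 (od_of_not_cn hD hx hb.1 fun e => hn (hb.2.trans e.symm))
      exact ⟨t, ⟨m.mem, m.cj.symm ▸ hb.2⟩, m.cj⟩
  rw [← hb.image_eq, hb.injOn.ncard_image]
  obtain ⟨s, m, -⟩ := exists_mid h hx ha (od_of_not_cn hD hx ha fun e => hn e.symm)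
  have sw : ∀ y ∈ D, Cn D a (y * x * y⁻¹) → Cn D x (y * a * y⁻¹) := fun y hy e => by
    have := e.cj hD y
    rw [(md y hy e).cj' h] at this
    exact this.symm
  have hs : Cn D a (s * x * s⁻¹) := m.cj.symm ▸ Cn.refl a
  have := H11.ZD.conj_modEq (p := 2) (H11.ZD.Two.of_ord (hD.orderOf_eq s m.mem)).pg
    {y | y ∈ D ∧ Cn D a (y * x * y⁻¹)} (by
      intro g hg y hy
      rcases (H6.mem_zpowers_ord2 (h.sq s m.mem)).1 hg with rfl | rfl
      · simpa using hy
      · refine ⟨hD.conj_mem y hy.1 g, ?_⟩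
        have := (sw y hy.1 hy.2).cj hD g
        rw [m.cj] at this
        rw [← m.cj' h]
        simpa [mul_assoc] using this)
  rw [show {y | y ∈ D ∧ Cn D a (y * x * y⁻¹)} ∩ (C[zpowers s] : Set G) = {s} from ?_, Set.ncard_singleton] at this
  · exact Nat.odd_iff.2 this
  refine Set.eq_singleton_iff_unique_mem.2 ⟨⟨⟨m.mem, hs⟩, ?_⟩, fun y hy => by_contra fun hne => ?_⟩
  · rintro _ ⟨k, rfl⟩; exact ((Commute.refl s).zpow_left k).eq
  · have hc : Commute y s := (hy.2 s (mem_zpowers s)).symm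
    have h1 : y * s ∈ St hD a := by
      rw [mem_St, show y * s * a * (y * s)⁻¹ = y * (s * a * s⁻¹) * y⁻¹ by group, m.cj' h]; exact hy.1.2
    have h2 := mem_St_of_cn hD (cn_of_simple hD hy.1.1 m.mem hc hne ha h1).symm
    exact hn (Cn.trans h2 (sw y hy.1.1 hy.1.2).symm)

end

/-- Aschbacher's criterion -/
def ZD : Prop :=
  ∀ (G : Type u) [Group G] [Finite G] [IsSimpleGroup G] (M : Subgroup G), M ≠ ⊤ → ∀ z : G, orderOf z = 2 →
    z ∈ M → (∃ S : Sylow 2 G, z ∈ S ∧ ∀ s ∈ S, Commute s z) → (∀ g : G, g * z * g⁻¹ ∈ M → g ∈ M) →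
    (∀ g : G, Commute z (g * z * g⁻¹) → g * z * g⁻¹ ≠ z →
      Subgroup.centralizer ({z * (g * z * g⁻¹)} : Set G) ≤ M) → ∃ H : Subgroup G, IsStronglyEmbedded H

theorem ZD.se_simple (zd : ZD.{u}) {G : Type u} [Group G] [Finite G] [IsSimpleGroup G] {D : Set G}
    (hD : IsRootInvolutionSet D) {a x : G} (ha : a ∈ D) (hx : x ∈ D) (hn : ¬ Cn D a x) :
    ∃ H : Subgroup G, IsStronglyEmbedded H := by
  have h := ri_of hD
  obtain ⟨S, hS⟩ := (H11.ZD.Two.of_ord (hD.orderOf_eq a ha)).pg.exists_le_sylow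
  have haS : a ∈ S := hS (mem_zpowers a)
  have h1 : ∀ s ∈ S, s ∈ St hD a := fun s hs => by_contra fun e =>
    h.not_od_of_pgroup S.2 haS (S.1.mul_mem (S.1.mul_mem hs haS) (S.1.inv_mem hs)) (hD.conj_mem a ha s)
      (od_of_not_cn hD ha (hD.conj_mem a ha s) e)
  obtain ⟨z, ⟨hz, h2⟩, h3⟩ := H11.ZD.exists_cent_of_odd S.2 _ (odd_comp hD ha hx hn) fun g hg y hy =>
    ⟨hD.conj_mem y hy.1 g, Cn.trans (h1 g hg) (hy.2.cj hD g)⟩
  have hzS : z ∈ S := by
    have := S.3 (IsPGroup.to_sup_of_normal_left' S.2 (H11.ZD.Two.of_ord (hD.orderOf_eq z hz)).pg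
      (zpowers_le.2 (centralizer_le_normalizer _ h3))) le_sup_left
    exact this.le (mem_sup_right (mem_zpowers z))
  refine zd G (St hD z) (fun e => hn (h2.trans (cn_of_mem_St hD hz hx (e ▸ mem_top x)))) z
    (hD.orderOf_eq z hz) (mem_St_of_cn hD (Cn.refl z)) ⟨S, hzS, fun s hs => h3 s hs⟩
    (fun g hg => cn_of_mem_St hD hz (hD.conj_mem z hz g) hg) fun g h4 h5 k hk => ?_
  refine cn_of_cent hD hz (hD.conj_mem z hz g) h4 h5.symm (hD.conj_mem z hz k) ?_
  have := commute_cj ((Commute.refl z).mul_left h4.symm) k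
  rwa [cj_eq (mem_centralizer_singleton_iff.1 hk)] at this

end H12.RD
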