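import Cfsg.Agent.H12.RD1
import Cfsg.Agent.H17.GB4

/-! Root involutions with a disconnected commuting graph: the Bender quotient. -/

set_option autoImplicit false
set_option linter.unusedSectionVars false

open Subgroup Cfsg H16 H16.H11 Relation
open scoped commutatorElement

namespace H12.RD

universe u

variable {G H : Type*} [Group G] [Group H] {D : Set G} {a b c d x y : G} {f : G →* H}

theorem img_set (hD : IsRootInvolutionSet D) (hf : Function.Surjective f) (h1 : ∀ d ∈ D, f d ≠ 1) :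
    IsRootInvolutionSet (f '' D) := by
  have h := ri_of hD
  have := Fact.mk Nat.prime_two
  refine ⟨?_, ?_, ?_, ?_⟩
  · rintro _ ⟨d, hd, rfl⟩
    exact orderOf_eq_prime (by rw [sq, ← map_mul, h.sq d hd, map_one]) (h1 d hd)
  · rw [← MonoidHom.map_closure, hD.generates, map_top_of_surjective _ hf]
  · rintro _ ⟨d, hd, rfl⟩ g
    obtain ⟨g, rfl⟩ := hf g
    exact ⟨_, hD.conj_mem d hd g, by simp⟩
  · rintro _ ⟨a, ha, rfl⟩ _ ⟨b, hb, rfl⟩
    rw [← map_mul, ← map_mul]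
    rcases hD.pair a ha b hb with e | e | e
    · exact Or.inl (congrArg f e)
    · exact Or.inr (Or.inl (e.of_dvd_nat (orderOf_map_dvd f _)))
    · refine Or.inr (Or.inr ⟨orderOf_eq_prime_pow (p := 2) (n := 1) ?_ ?_, _, e.2, map_pow ..⟩)
      · rw [← map_pow]; exact h1 _ e.2
      · rw [← map_pow, show 2 ^ (1 + 1) = orderOf (a * b) from e.1.symm, pow_orderOf_eq_one, map_one]

theorem comm_of_map (h : RI D) (h1 : ∀ d ∈ D, f d ≠ 1) (h2 : ∀ a ∈ D, ∀ b ∈ D, Od a b → f a ≠ f b)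
    (ha : a ∈ D) (hb : b ∈ D) (hc : Commute (f a) (f b)) : Commute a b := by
  rcases h.cases ha hb with e | e | e
  · exact e
  · refine absurd ?_ (h2 a ha b hb e)
    have : f (a * b) = 1 := H6.eq_one_of_odd_of_sq (e.2.of_dvd_nat (orderOf_map_dvd f _)) (by
      rw [← map_mul, h.sq_eq ha hb, map_commutatorElement, commutatorElement_eq_one_iff_commute.2 hc])
    rw [← MonoidHom.mem_ker, MonoidHom.mem_ker, map_mul] at this
    rw [eq_inv_of_mul_eq_one_left this, ← map_inv, h.inv hb]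
  · exact absurd (by rw [map_commutatorElement, commutatorElement_eq_one_iff_commute.2 hc]) (h1 _ (h.v4_mem ha hb e))

theorem cn_of_map (h : RI D) (h1 : ∀ d ∈ D, f d ≠ 1) (h2 : ∀ a ∈ D, ∀ b ∈ D, Od a b → f a ≠ f b)
    (ha : a ∈ D) (hb : b ∈ D) (hc : Cn (f '' D) (f a) (f b)) : Cn D a b := by
  have key : ∀ q, Cn (f '' D) (f a) q → ∀ y ∈ D, f y = q → Cn D a y := fun q hq => by
    induction hq with
    | refl => exact fun y hy e => cn_of_comm ha hy (comm_of_map h h1 h2 ha hy (e ▸ Commute.refl _))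
    | tail _ h3 ih =>
      rintro y hy rfl
      obtain ⟨⟨c, hC, rfl⟩, -, -, h3⟩ := h3
      exact (ih c hC rfl).trans (cn_of_comm hC hy (comm_of_map h h1 h2 hC hy h3))
  exact key _ hc b hb rfl

theorem sep_of_normal (h : RI D) (hl : Lined D) {N : Subgroup G} [N.Normal] (hN : ∀ d ∈ D, d ∉ N) :
    ∀ a ∈ D, ∀ b ∈ D, Od a b → QuotientGroup.mk' N a ≠ QuotientGroup.mk' N b := fun a ha b hb ho e => by
  have h1 : b * a⁻¹ ∈ N := by
    rw [← QuotientGroup.eq_one_iff]; simp [show (a : G ⧸ N) = b from e]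
  have e1 : b * a⁻¹ * a * (b * a⁻¹)⁻¹ = b * a * b⁻¹ := by group
  have := h.commute_cj_of_normal hl hN ha h1 (e1 ▸ h.cj a ha b hb)
  exact h.od_not_comm ha (h.cj a ha b hb) (h.od_cj hb ha ho.symm) (e1 ▸ this)

theorem not_mem_core [Finite G] (hD : IsRootInvolutionSet D) (hc : Cls D) (hl : Lined D) :
    ∀ d ∈ D, d ∉ twoZCore G := fun d hd e =>
  not_solvable_top hD hc hl hd (eq_top_of_mem hD hc hd e ▸ twoZCore_solvable)

theorem BF_mem_V [Finite G] {Q V K W : Subgroup G} {t : G} (h : H17.BF ⊤ Q V K W t) (hb : b ∈ V) (b1 : b ≠ 1)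
    (ha : a * a = 1) (hc : Commute a b) : a ∈ V := by
  have h1 : a ∈ Q ⊔ W := h.cent1 hb b1 ▸ ⟨mem_top a, mem_centralizer_singleton_iff.2 hc⟩
  obtain ⟨x, hx, w, hw, rfl⟩ := h.memQW.1 h1
  have hw' : w ∈ K ⊔ W := mem_sup_right hw
  have h2 : w * w = 1 := h.eq_one (by
    rw [show w * w = (x * (w⁻¹⁻¹ * x * w⁻¹))⁻¹ * (x * w * (x * w)) by group, ha, mul_one]
    exact inv_mem (mul_mem hx (h.conj _ (inv_mem hw') x hx))) (mul_mem hw' hw')
  rw [H6.eq_one_of_odd_of_sq (h.odd_ord hw') h2, mul_one] at ha ⊢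
  exact (h.memV x).2 ⟨hx, ha⟩

theorem exists_BF [Finite G] [IsSimpleGroup G] {M : Subgroup G} (hM : IsStronglyEmbedded M)
    (hn : ¬ IsMulCommutative G) (hb : orderOf b = 2) : ∃ Q V K W t, H17.BF ⊤ Q V K W t ∧ b ∈ V := by
  obtain ⟨S, hS⟩ := (H11.ZD.Two.of_ord hb).pg.exists_le_sylow
  obtain ⟨V, K, W, t, h⟩ := H17.exists_bf_top hM hn (Q := S) (by have := Fact.mk Nat.prime_two; exact sy_top_of_sylow S)
  exact ⟨S, V, K, W, t, h, (h.memV b).2 ⟨hS (mem_zpowers b), H6.ord2_mul_self hb⟩⟩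

theorem ZD.dc (zd : ZD.{u}) {G : Type u} [Group G] [Finite G] {D : Set G} (hD : IsRootInvolutionSet D)
    (hDD : (D ∩ commutingProducts D).Nonempty) {a x : G} (ha : a ∈ D) (hx : x ∈ D) (hn : ¬ Cn D a x) :
    IsSimpleGroup (G ⧸ twoZCore G) ∧ ¬ IsMulCommutative (G ⧸ twoZCore G) ∧
      ∃ M : Subgroup (G ⧸ twoZCore G), IsStronglyEmbedded M := by
  have h := ri_of hD
  have hc := cls_of_not_cn hD ha hx hn
  have hl := h.lined hc hDD
  have h0 := not_mem_core hD hc hl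
  have h1 : ∀ d ∈ D, QuotientGroup.mk' (twoZCore G) d ≠ 1 := fun d hd e => h0 d hd ((QuotientGroup.eq_one_iff d).1 e)
  have := simple_quot hD hc hl ha
  exact ⟨this, fun e => hn (cn_of_comm ha hx (comm_of_map h h1 (sep_of_normal h hl h0) ha hx (e.1.1 _ _))),
    zd.se_simple (img_set hD (QuotientGroup.mk'_surjective _) h1) ⟨a, ha, rfl⟩ ⟨x, hx, rfl⟩
      fun e => hn (cn_of_map h h1 (sep_of_normal h hl h0) ha hx e)⟩

theorem ZD.comm_of_cn (zd : ZD.{u}) {G : Type u} [Group G] [Finite G] {D : Set G} (hD : IsRootInvolutionSet D)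
    (hDD : (D ∩ commutingProducts D).Nonempty) {a x : G} (ha : a ∈ D) (hx : x ∈ D) (hn : ¬ Cn D a x)
    {b c : G} (hb : b ∈ D) (hc : Cn D b c) : Commute b c := by
  have h := ri_of hD
  have hc' := cls_of_not_cn hD ha hx hn
  have hl := h.lined hc' hDD
  have h0 := not_mem_core hD hc' hl
  have h1 : ∀ d ∈ D, QuotientGroup.mk' (twoZCore G) d ≠ 1 := fun d hd e => h0 d hd ((QuotientGroup.eq_one_iff d).1 e)
  obtain ⟨_, h2, M, hM⟩ := zd.dc hD hDD ha hx hn
  have hD' := img_set hD (QuotientGroup.mk'_surjective _) h1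
  induction hc with
  | refl => exact Commute.refl b
  | @tail c e _ h3 ih =>
    obtain ⟨Q, V, K, W, t, B, h4⟩ := exists_BF hM h2 (hD'.orderOf_eq _ ⟨c, h3.1, rfl⟩)
    have h5 := BF_mem_V B h4 (h1 c h3.1) ((ri_of hD').sq _ ⟨b, hb, rfl⟩) (ih.map _)
    have h6 := BF_mem_V B h4 (h1 c h3.1) ((ri_of hD').sq _ ⟨e, h3.2.1, rfl⟩) (Commute.map h3.2.2.2.symm _)
    exact comm_of_map h h1 (sep_of_normal h hl h0) hb h3.2.1 (B.cen _ h5 _ (B.VQ h6))

theorem ZD.not_v4 (zd : ZD.{u}) {G : Type u} [Group G] [Finite G] {D : Set G} (hD : IsRootInvolutionSet D)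
    {a x : G} (ha : a ∈ D) (hx : x ∈ D) (hn : ¬ Cn D a x) {b c : G} (hb : b ∈ D) (hc : c ∈ D) : ¬ V4 b c := fun hv => by
  have h := ri_of hD
  have h1 := h.v4_mem hb hc hv
  refine h.v4_not_comm hb hc hv (zd.comm_of_cn hD ⟨_, h.v4_mul hb hc hv, b, hb, _, h1, (h.v4_left hb hc hv).symm,
    h.ne _ (h.v4_mul hb hc hv), rfl⟩ ha hx hn hb ?_)
  exact (cn_of_comm hb h1 (h.v4_left hb hc hv).symm).trans (cn_of_comm h1 hc (h.v4_right hb hc hv))

end H12.RD
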