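import Cfsg.Agent.H12.RD2

/-! Non-degenerate root involutions: the line graph is connected. -/

set_option autoImplicit false
set_option linter.unusedSectionVars false

open Subgroup Cfsg H16 H16.H11 Relation
open scoped commutatorElement

namespace H12.RD

universe u

variable {G : Type*} [Group G] {D : Set G} {a b c d e g t x y : G}

theorem sub_set (h : RI D) : IsRootInvolutionSet ((closure D).subtype ⁻¹' D) := by
  have := Fact.mk Nat.prime_two
  refine ⟨fun d hd => ?_, ?_, fun d hd g => h.conj g.2 hd, fun a ha b hb => ?_⟩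
  · exact orderOf_eq_prime (Subtype.ext (by simpa [sq] using h.sq _ hd)) fun e => h.ne _ hd (congrArg Subtype.val e)
  · exact closure_preimage_eq_top D
  · rw [← orderOf_coe]
    rcases h.pair a ha b hb with e | e | e
    exacts [Or.inl (Subtype.ext e), Or.inr (Or.inl e), Or.inr (Or.inr e)]

theorem cn_of_sub {K : Subgroup G} {a b : K} (hc : Cn (K.subtype ⁻¹' D) a b) : Cn D (a : G) b :=
  rtg_lift' (fun x : K => (x : G)) (fun _ _ h => .single ⟨h.1, h.2.1, fun e => h.2.2.1 (Subtype.ext e),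
    congrArg Subtype.val h.2.2.2⟩) hc

theorem ZD.not_v4' (zd : ZD.{u}) {G : Type u} [Group G] [Finite G] {D : Set G} (h : RI D)
    {a x : G} (ha : a ∈ D) (hx : x ∈ D) (hn : ¬ Cn D a x) {b c : G} (hb : b ∈ D) (hc : c ∈ D) : ¬ V4 b c := fun hv =>
  zd.not_v4 (sub_set h) (a := ⟨a, subset_closure ha⟩) (x := ⟨x, subset_closure hx⟩) ha hx (fun e => hn (cn_of_sub e))
    (b := ⟨b, subset_closure hb⟩) (c := ⟨c, subset_closure hc⟩) hb hc ((orderOf_coe _).symm.trans hv)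

/-- connected in the line graph -/
def En (D : Set G) (a b : G) : Prop := ReflTransGen (ProdAdj D) a b

theorem En.refl (a : G) : En D a a := ReflTransGen.refl

theorem En.trans (h1 : En D a b) (h2 : En D b c) : En D a c := ReflTransGen.trans h1 h2

theorem En.symm (h1 : En D a b) : En D b a :=
  rtg_symm (fun _ _ h => ⟨h.2.1, h.1, h.2.2.1.symm, h.2.2.2.1.symm, h.2.2.2.1 ▸ h.2.2.2.2⟩) h1

theorem En.mem (h1 : En D a b) (ha : a ∈ D) : b ∈ D := by
  induction h1 with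
  | refl => exact ha
  | tail _ h _ => exact h.2.1

section
variable (h : RI D)
include h

theorem en_of_line (ha : a ∈ D) (hb : b ∈ D) (hc : Commute a b) (he : a * b ∈ D) : En D a b :=
  ReflTransGen.single ⟨ha, hb, fun e => h.ne _ he (e ▸ h.sq a ha), hc, he⟩

theorem en_comm (ha : a ∈ D) (hb : b ∈ D) (hv : V4 a b) : En D a ⁅a, b⁆ :=
  en_of_line h ha (h.v4_mem ha hb hv) (h.v4_left ha hb hv).symm (h.v4_mul ha hb hv)

theorem en_of_v4 (ha : a ∈ D) (hb : b ∈ D) (hv : V4 a b) : En D a b :=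
  (en_comm h ha hb hv).trans (h.v4_swap ha hb hv ▸ (en_comm h hb ha hv.symm).symm)

theorem En.cj (h1 : En D a b) (hg : g ∈ closure D) : En D (g * a * g⁻¹) (g * b * g⁻¹) :=
  rtg_lift' (fun x => g * x * g⁻¹) (fun _ _ h1 => .single ⟨h.conj hg h1.1, h.conj hg h1.2.1,
    fun e => h1.2.2.1 (by simpa using e), commute_cj h1.2.2.2.1 g, conj_mul' g _ _ ▸ h.conj hg h1.2.2.2.2⟩) h1

theorem od_of_en (hx : x ∈ D) (hn : ¬ En D a x) (ho : Od a x) (h1 : En D a b) : Od b x := by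
  induction h1 with
  | refl => exact ho
  | @tail b c h2 h3 ih =>
    by_contra hn'
    exact hn ((En.trans h2 (.single h3)).trans (en_of_v4 h h3.2.1 hx
      (h.mk_cf h3.1 h3.2.1 hx h3.2.2.2.1 h3.2.2.2.2 ih hn').v))

theorem comm_of_en (ha : a ∈ D) (hx : x ∈ D) (hn : ¬ En D a x) (hc : Commute a x) (h1 : En D a b) : Commute b x := by
  have hb := h1.mem ha
  have hn' : ¬ En D b x := fun e => hn (h1.trans e)
  rcases h.cases hb hx with e | e | e
  · exact e
  · exact absurd hc (h.od_not_comm ha hx (od_of_en h hx hn' e h1.symm))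
  · exact absurd (en_of_v4 h hb hx e) hn'

theorem exists_od_not_en (hc : Cls D) (ha : a ∈ D) (hy : y ∈ D) (hn : ¬ En D a y) : ∃ x ∈ D, Od a x ∧ ¬ En D a x := by
  by_contra! H
  have key : ∀ g ∈ closure D, En D a (g * a * g⁻¹) := fun g hg => by
    induction hg using closure_induction with
    | mem x hx =>
      by_cases e : En D a x
      · have := e.cj h (subset_closure hx)
        rw [mul_inv_cancel_right] at this
        exact e.trans this.symm
      · rcases h.cases ha hx with e1 | e1 | e1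
        · rw [cj_eq e1.symm]; exact En.refl a
        · exact absurd (H x hx e1) e
        · exact absurd (en_of_v4 h ha hx e1) e
    | one => simpa using En.refl a
    | mul g k hg _ h1 h2 => simpa [mul_assoc] using h1.trans (h2.cj h hg)
    | inv g hg h1 => simpa [mul_assoc] using (h1.cj h (inv_mem hg)).symm
  obtain ⟨g, hg, rfl⟩ := hc a ha y hy
  exact hn (key g hg)

theorem cj_of_od {U : Subgroup G} (ha : a ∈ D) (hx : x ∈ D) (ho : Od a x) (h1 : a ∈ U) (h2 : x ∈ U) :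
    ∃ g ∈ U, g * a * g⁻¹ = x := by
  obtain ⟨t, m, ht⟩ := exists_mid h ha hx ho
  exact ⟨t, ht U h1 h2, m.cj⟩

end

theorem ZD.en (zd : ZD.{u}) {G : Type u} [Group G] [Finite G] {D : Set G} (h : RI D) (hc : Cls D)
    (hv : ∀ a ∈ D, ∃ b ∈ D, V4 a b) {a y : G} (ha : a ∈ D) (hy : y ∈ D) : En D a y := by
  by_contra hn
  let L : G → G → Subgroup G := fun a x => closure ({b | En D a b} ∪ {x})
  obtain ⟨⟨a, x⟩, ⟨ha, hx, ho, hn⟩, hm⟩ := Set.exists_min_image {p : G × G | p.1 ∈ D ∧ p.2 ∈ D ∧ Od p.1 p.2 ∧ ¬ En D p.1 p.2}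
    (fun p => Nat.card (L p.1 p.2)) (Set.toFinite _) (by
      obtain ⟨x, hx, h1, h2⟩ := exists_od_not_en h hc ha hy hn
      exact ⟨(a, x), ha, hx, h1, h2⟩)
  dsimp only at ha hx ho hn hm
  have xL : ∀ c, x ∈ L c x := fun c => subset_closure (Or.inr rfl)
  have eL : ∀ {c b}, En D c b → b ∈ L c x := fun h1 => subset_closure (Or.inl h1)
  have LD : L a x ≤ closure D := closure_mono (by rintro b (hb | rfl); exacts [En.mem hb ha, hx])
  let E : Set G := {b | ∃ g ∈ L a x, g * a * g⁻¹ = b}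
  have ED : E ⊆ D := by rintro _ ⟨g, hg, rfl⟩; exact h.conj (LD hg) ha
  have EL : ∀ b ∈ E, b ∈ L a x := by
    rintro _ ⟨g, hg, rfl⟩; exact mul_mem (mul_mem hg (eL (En.refl a))) (inv_mem hg)
  have cjE : ∀ b ∈ E, ∀ g ∈ L a x, g * b * g⁻¹ ∈ E := by
    rintro _ ⟨k, hk, rfl⟩ g hg; exact ⟨g * k, mul_mem hg hk, by group⟩
  have xE : x ∈ E := cj_of_od h ha hx ho (eL (En.refl a)) (xL a)
  have enE : ∀ c ∈ E, ∀ b, En D c b → b ∈ E := by
    rintro _ ⟨g, hg, rfl⟩ b hb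
    have h1 : En D a (g⁻¹ * b * g⁻¹⁻¹) := by simpa [mul_assoc] using hb.cj h (inv_mem (LD hg))
    obtain ⟨k, hk, e⟩ := cj_of_od h hx (h1.mem ha) (od_of_en h hx hn ho h1).symm (xL a) (eL h1)
    simpa [e, mul_assoc] using cjE _ (cjE x xE k hk) g hg
  have hE : RI E := ⟨fun d hd => h.sq d (ED hd), fun d hd => h.ne d (ED hd), fun d hd e he => cjE d hd e (EL e he),
    fun b hb c hC => (h.pair b (ED hb) c (ED hC)).imp_right (Or.imp_right fun e => ⟨e.1, by
      rw [sq, h.sq_eq (ED hb) (ED hC)]; exact enE b hb _ (en_comm h (ED hb) (ED hC) e.1)⟩)⟩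
  have aE : a ∈ E := ⟨1, one_mem _, by simp⟩
  obtain ⟨b, hb, hv⟩ := hv a ha
  refine zd.not_v4' hE aE xE (fun e => ?_) aE (enE a aE b (en_of_v4 h ha hb hv)) hv
  have key : ∀ c, Cn E a c → Od c x ∧ ¬ En D c x := fun c h1 => by
    induction h1 with
    | refl => exact ⟨ho, hn⟩
    | @tail c e _ h2 ih =>
      have hC := ED h2.1
      have he := ED h2.2.1
      by_cases h3 : En D c e
      · exact ⟨od_of_en h hx ih.2 ih.1 h3, fun h4 => ih.2 (h3.trans h4)⟩
      have h4 : ¬ En D e x := fun h4 => h.od_not_comm hC hx ih.1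
        (comm_of_en h he hC (fun h5 => h3 h5.symm) h2.2.2.2.symm h4).symm
      refine ⟨((h.cases he hx).resolve_left fun h5 => ?_).resolve_right fun h5 => h4 (en_of_v4 h he hx h5), h4⟩
      have h6 : L c x = L a x := eq_of_le_of_card_ge ((closure_le _).2 (by
        rintro b (hb | rfl); exacts [EL b (enE c h2.1 b hb), xL a])) (hm (c, x) ⟨hC, hx, ih⟩)
      have h7 : L a x ≤ centralizer {e} := h6 ▸ (closure_le _).2 (by
        rintro b (hb | rfl)
        exacts [mem_centralizer_singleton_iff.2 (comm_of_en h hC he h3 h2.2.2.2 hb),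
          mem_centralizer_singleton_iff.2 h5.symm])
      obtain ⟨g, hg, e1⟩ := h2.2.1
      have h8 : a = e := by
        rw [show a = g⁻¹ * e * g⁻¹⁻¹ by rw [← e1]; group, cj_eq (mem_centralizer_singleton_iff.1 (h7 (inv_mem hg)))]
      exact h.od_not_comm ha hx ho (h8 ▸ h5)
  exact (key x e).1.1 rfl

theorem exists_tv [Finite G] (h : RI D) (hc : Cls D) (hb : b ∈ D) (hd : d ∈ D) (h1 : Commute b d) (h2 : b * d ∈ D)
    (hn : OdS D b ≠ OdS D d) : ∃ f ∈ D, Commute f d ∧ f * d ∈ D ∧ f * b * f⁻¹ = b * d := by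
  obtain ⟨x, c⟩ := h.ex_cf hc hb hd h1 h2 hn
  obtain ⟨f, c', e⟩ := h.cf_ex c
  refine ⟨f, c'.mb, e ▸ (h.v4_left c'.mb hb c'.v).symm, e ▸ h.v4_mul c'.mb hb c'.v, ?_⟩
  rw [h.v4_conj hb c'.mb c'.v.symm, h.v4_swap c'.mb hb c'.v, e]

theorem ZD.gen (zd : ZD.{u}) {G : Type u} [Group G] [Finite G] {D : Set G} (h : RI D) (hc : Cls D)
    (hv : ∀ a ∈ D, ∃ b ∈ D, V4 a b) {d x : G} (hd : d ∈ D) (hx : x ∈ D) (ho : Od d x) {U : Subgroup G} (hU : x ∈ U)
    (hU' : ∀ b ∈ D, Commute b d → b * d ∈ D → b ∈ U) (hle : U ≤ closure D) : ∀ y ∈ D, y ∈ U := by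
  have h1 : ∀ b ∈ D, Commute b d → b * d ∈ D → b * d ∈ U := fun b hb h1 h2 =>
    hU' _ h2 (h1.mul_left (Commute.refl d)) (by rwa [mul_assoc, h.sq d hd, mul_one])
  have dU : d ∈ U := by
    obtain ⟨b, hb, hv⟩ := hv d hd
    have h2 := h.v4_left hd hb hv
    have h3 := h2.eq ▸ h.v4_mul hd hb hv
    exact (mul_mem_cancel_left (hU' _ (h.v4_mem hd hb hv) h2 h3)).1 (h1 _ (h.v4_mem hd hb hv) h2 h3)
  have h2 : ∀ b ∈ D, b ∈ U → Od b x → ∃ g ∈ U, g * d * g⁻¹ = b := fun b hb h2 h3 => by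
    obtain ⟨g, hg, e1⟩ := cj_of_od h hd hx ho dU hU
    obtain ⟨k, hk, e2⟩ := cj_of_od h hx hb h3.symm hU h2
    exact ⟨k * g, mul_mem hk hg, by rw [← e2, ← e1]; group⟩
  have h3 : ∀ b ∈ D, Commute b d → b * d ∈ D → ∃ g ∈ U, g * d * g⁻¹ = b := fun b hb h3 h4 => by
    by_cases e : Od b x
    · exact h2 b hb (hU' b hb h3 h4) e
    have c := h.mk_cf hd hb hx h3.symm (h3.eq ▸ h4) ho e
    obtain ⟨f, hf, h5, h6, h7⟩ := exists_tv h hc hb hd h3 h4 c.ne.symm
    obtain ⟨g, hg, e1⟩ := h2 _ h4 (h1 b hb h3 h4) (h3.eq ▸ h.cf_od c)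
    exact ⟨f⁻¹ * g, mul_mem (inv_mem (hU' f hf h5 h6)) hg, by
      rw [show f⁻¹ * g * d * (f⁻¹ * g)⁻¹ = f⁻¹ * (g * d * g⁻¹) * f by group, e1, ← h7]; group⟩
  have key : ∀ y, En D d y → ∃ g ∈ U, g * d * g⁻¹ = y := fun y h4 => by
    induction h4 with
    | refl => exact ⟨1, one_mem _, by simp⟩
    | @tail b c _ h5 ih =>
      obtain ⟨g, hg, rfl⟩ := ih
      have h6 := inv_mem (hle hg)
      obtain ⟨k, hk, e⟩ := h3 _ (h.conj h6 h5.2.1) (by simpa [mul_assoc] using commute_cj h5.2.2.2.1.symm g⁻¹)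
        (by
          have := h.conj h6 h5.2.2.2.2
          rw [h5.2.2.2.1] at this
          simpa [mul_assoc] using this)
      exact ⟨g * k, mul_mem hg hk, by rw [show g * k * d * (g * k)⁻¹ = g * (k * d * k⁻¹) * g⁻¹ by group, e]; group⟩
  intro y hy
  obtain ⟨g, hg, rfl⟩ := key y (zd.en h hc hv hd hy)
  exact mul_mem (mul_mem hg dU) (inv_mem hg)

theorem cls_of_class (hcl : IsRootInvolutionClass D) : Cls D := fun a ha b hb => by
  obtain ⟨g, e⟩ := hcl.2.2 a ha b hb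
  exact ⟨g, hcl.1.generates ▸ mem_top g, e.symm⟩

theorem v4_of_nondeg (hD : IsNondegenerateRootInvolutionSet D) (hc : Cls D) : ∀ a ∈ D, ∃ b ∈ D, V4 a b := fun a ha => by
  obtain ⟨b, hb, c, hC, hv⟩ := hD.2.2.2
  obtain ⟨g, -, rfl⟩ := hc b hb a ha
  exact ⟨_, hD.1.conj_mem c hC g, V4.cj hv g⟩

end H12.RD
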