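import Cfsg.Agent.H12.RD3
import Cfsg.Agent.S0102
import Cfsg.Agent.S0262
import Cfsg.Agent.H26.SzPart
import Cfsg.Agent.H26.SzInst

/-! Bender groups generated by an elementary abelian subgroup and an involution. -/

set_option autoImplicit false
set_option linter.unusedSectionVars false

open Subgroup Cfsg H16 H16.H11
open scoped MatrixGroups Pointwise

namespace H12.RD

variable {G : Type*} [Group G] [Finite G] {y : G}

theorem W_bot_of_gen {Q V K W : Subgroup G} {t : G} (B : H17.BF ⊤ Q V K W t) (hy : y * y = 1)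
    (hg : closure ((V : Set G) ∪ {y}) = ⊤) : W = ⊥ := by
  have h1 : y ∉ Q ⊔ (K ⊔ W) := fun e => B.t_not ((closure_le _).2 (by
    rintro v (hv | rfl); exacts [mem_sup_left (B.VQ hv), e]) (hg ▸ mem_top t))
  obtain ⟨x, hx, d, hd, z, hz, rfl⟩ := B.bru' (mem_top y) h1
  have h2 : z * x * d * t * (z * x * d * t) = 1 := by
    rw [show z * x * d * t * (z * x * d * t) = z * (x * d * t * z * (x * d * t * z)) * z⁻¹ by group, hy]; simp
  have h3 : z * x = 1 := B.ti1 (mul_mem hz hx) (by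
    rw [show t * (z * x) * t = (z * x * d)⁻¹ * (z * x * d * t * (z * x * d * t)) * (t⁻¹ * d * t)⁻¹ by group,
      h2, B.t_inv, mul_one]
    exact mul_mem (inv_mem (mul_mem (mem_sup_left (mul_mem hz hx)) (mem_sup_right hd)))
      (inv_mem (mem_sup_right (B.tD hd))))
  obtain ⟨k, hk, w, hw, rfl⟩ := B.memD.1 hd
  have c := B.comm (mem_sup_left hk) (mem_sup_right hw)
  have h4 : w = 1 := H6.eq_one_of_odd_of_sq (B.odd_ord (mem_sup_right hw)) (by
    rw [h3, one_mul, show k * w * t * (k * w * t) = k * w * (t * k * t) * (t * t)⁻¹ * (t * w * t) by group, B.tK k hk,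
      B.tW w hw, B.tt, c] at h2
    simpa using h2)
  subst h4
  refine eq_bot_iff.2 fun w hw => ?_
  have h5 : ⊤ ≤ centralizer {z⁻¹ * w * z} := hg ▸ (closure_le _).2 (by
    rintro v (hv | rfl) <;> refine mem_centralizer_singleton_iff.2 ?_
    · have e1 : Commute v z := B.cen v hv z hz
      exact ((e1.inv_right.mul_right (B.WV w hw v hv)).mul_right e1).eq
    · have e1 : Commute k w := B.comm (mem_sup_left hk) (mem_sup_right hw)
      have e2 : Commute t w := by rw [Commute, SemiconjBy, ← mul_inv_eq_iff_eq_mul, B.t_inv, B.tW w hw]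
      rw [eq_inv_of_mul_eq_one_right h3]
      simpa [mul_assoc] using (commute_cj (e1.mul_left e2) z⁻¹).eq)
  have h6 : z⁻¹ * w * z = 1 := B.eq_one_of_conj (mem_top _) fun g _ => by
    rw [mul_assoc g⁻¹, ← mem_centralizer_singleton_iff.1 (h5 (mem_top g)), inv_mul_cancel_left]
    exact mul_mem (mul_mem (mem_sup_left (inv_mem hz)) (mem_sup_right (mem_sup_right hw))) (mem_sup_left hz)
  simpa [mul_assoc, inv_mul_eq_one] using h6

/-- `L₂(q)` or `Sz(q)` -/
def LS (G : Type*) [Group G] : Prop :=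
  (∃ (F : Type) (_ : Field F) (_ : Fintype F), CharP F 2 ∧ 4 ≤ Fintype.card F ∧ Nonempty (G ≃* PSL(2, F))) ∨
    Lie.IsoSuzuki G

theorem LS.of_iso {H : Type*} [Group H] (h : LS G) (e : H ≃* G) : LS H := by
  rcases h with ⟨F, _, _, h1, h2, ⟨f⟩⟩ | ⟨F, _, _, m, h1, h2, ⟨f⟩⟩
  exacts [Or.inl ⟨F, _, _, h1, h2, ⟨e.trans f⟩⟩, Or.inr ⟨F, _, _, m, h1, h2, ⟨e.trans f⟩⟩]

theorem ls_of_r1 {Ω : Type*} [MulAction G Ω] {a : Ω} {t : G} {Q : Subgroup G} [IsSimpleGroup G]
    (h : H26.R1 G Ω a t Q) (hW : H17.WW a t Q = ⊥) : LS G := by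
  have := H17.faithful_of_simple h
  obtain ⟨s, r, h⟩ := (H17.sz_of_simple h).exists_sr
  refine LS.of_iso ?_ (topEquiv.symm.trans (MulEquiv.subgroupCongr h.LL_top.symm))
  obtain ⟨n, hn, e⟩ := h.exists_q
  obtain ⟨hQ, ⟨h1, -⟩ | ⟨h1, h2, h3⟩ | ⟨h1, h2, rfl, w, hw, x, hx, h3⟩⟩ := h.concl
  · have h0 : ∀ x ∈ Q, x ∈ H17.Q0 Q := fun x hx => H17.mem_Q0' hx (h1 x hx)
    obtain ⟨F, _, _, h2, h3⟩ := (h.zas_LL fun x hx => h.hh_Q0 (h0 x hx)).1
      ⟨⟨fun x y => Subtype.ext (h.comm0 (h0 _ x.2) y.2)⟩⟩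
    have h4 : Fintype.card F = 2 ^ n := by rw [h2, ← e, le_antisymm H17.Q0_le h0]
    have := Fact.mk Nat.prime_two
    exact Or.inl ⟨F, _, _, charP_of_card_eq_prime_pow h4, h4 ▸ Nat.pow_le_pow_right (n := 2) two_pos hn, h3⟩
  · exact Or.inr ((h.zas_LL fun x => h.hh_mem_K h3 h2).2 h1)
  · obtain rfl : w = 1 := mem_bot.1 (hW ▸ hw)
    simp at h3

theorem ls_of_gen [IsSimpleGroup G] {M : Subgroup G} (hM : IsStronglyEmbedded M) (hn : ¬ IsMulCommutative G)
    {S : Set G} (h1 : ∀ s ∈ S, s * s = 1) (h2 : ∀ s ∈ S, ∀ t ∈ S, Commute s t) (hy : y * y = 1)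
    (hg : closure (S ∪ {y}) = ⊤) : LS G := by
  have := Fact.mk Nat.prime_two
  obtain ⟨t, Q, h, hQ⟩ := H15.Bd.se_simple hM hn
  have B := H17.bf_of_r1 h
  obtain ⟨P, rfl⟩ := H17.Be.sylow_eq h hQ
  obtain ⟨P', hP⟩ := (isPGroup_closure_of_comm h1 h2).exists_le_sylow
  obtain ⟨g, rfl⟩ := MulAction.exists_smul_eq G P' P
  refine ls_of_r1 h (W_bot_of_gen B (y := g * y * g⁻¹) (by rw [conj_mul', hy]; simp) ?_)
  rw [eq_top_iff, ← map_top_of_surjective (MulAut.conj g).toMonoidHom (MulAut.conj g).surjective, ← hg,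
    MonoidHom.map_closure, closure_le]
  rintro _ ⟨s, hs | rfl, rfl⟩ <;> refine subset_closure ?_
  · exact Or.inl ((B.memV _).2 ⟨⟨s, hP (subset_closure hs), rfl⟩, by rw [← map_mul, h1 s hs, map_one]⟩)
  · exact Or.inr rfl

theorem LS.cyc (h : LS G) {p : ℕ} [hp : Fact p.Prime] (h2 : p ≠ 2) (P : Sylow p G) : IsCyclic P := by
  rcases h with ⟨F, _, _, h1, -, ⟨e⟩⟩ | ⟨F, _, _, m, h1, h3, ⟨e⟩⟩
  · have := Fact.mk Nat.prime_two
    let f : SL(2, F) →* G := e.symm.toMonoidHom.comp (QuotientGroup.mk' _)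
    have hf : Function.Surjective f := e.symm.surjective.comp (QuotientGroup.mk'_surjective _)
    obtain ⟨R, rfl⟩ := Sylow.mapSurjective_surjective hf p P
    have := Agent.S0262.result 2 p h2 h2 R
    exact isCyclic_of_surjective _ (f.subgroupMap_surjective R)
  · have := (H26.Sz.lieModel h1 h3).isCyclic_of_odd_pgroup h2 (P.2.map e.toMonoidHom)
    exact isCyclic_of_surjective _ ((P : Subgroup G).equivMapOfInjective e.toMonoidHom e.injective).symm.surjective

theorem center_bot_of_ls (hp : commutator G = ⊤) (hO : pCore 2 G = ⊥) {N : Subgroup G} [N.Normal] (hN : N ≤ center G)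
    (h : LS (G ⧸ N)) : N = ⊥ := by
  by_contra e
  obtain ⟨p, h1, h2⟩ := Nat.exists_prime_and_dvd (mt card_eq_one.1 e)
  have := Fact.mk h1
  by_cases h3 : p = 2
  · subst h3
    obtain ⟨z, hz⟩ := exists_prime_orderOf_dvd_card' 2 h2
    rw [← orderOf_coe] at hz
    have := H1.normal_of_le_center (zpowers_le.2 (hN z.2))
    exact H6.ord2_ne_one hz (mem_bot.1 (hO ▸ H1.le_pCore (H11.ZD.Two.of_ord hz).pg (mem_zpowers _)))
  refine Agent.S0102.result ?_ (h.cyc h3) (QuotientGroup.mk' N) (QuotientGroup.mk'_surjective N)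
    (by rwa [QuotientGroup.ker_mk']) hp (by rwa [QuotientGroup.ker_mk'])
  have := map_commutator_eq G (QuotientGroup.mk' N)
  rw [hp, map_top_of_surjective _ (QuotientGroup.mk'_surjective N),
    MonoidHom.range_eq_top.2 (QuotientGroup.mk'_surjective N)] at this
  exact this.symm

end H12.RD
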