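import Cfsg.Agent.H12.RD4
import Cfsg.Agent.S5363
import Cfsg.Agent.S0206

/-! Odd transpositions: groups generated by `E_d` and an opposite element. -/

set_option autoImplicit false
set_option linter.unusedSectionVars false

open Subgroup Cfsg H16 H16.H11
open scoped Pointwise

namespace H12.RD

universe u

variable {G : Type*} [Group G] {D : Set G} {a b c d e e' g x y : G}

local notation "E[" D "]" => sameCommutingClass D

theorem mem_E : e ∈ E[D] d ↔ e ∈ D ∧ ∀ c ∈ D, Commute c d ↔ Commute c e :=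
  and_congr_right fun _ => ⟨fun h c hc => ⟨fun h1 => (h.le ⟨hc, h1⟩).2, fun h1 => (h.ge ⟨hc, h1⟩).2⟩,
    fun h => Set.ext fun c => and_congr_right (h c)⟩

theorem self_E (hd : d ∈ D) : d ∈ E[D] d := ⟨hd, rfl⟩

theorem E_eq (he : e ∈ E[D] d) : E[D] e = E[D] d := Set.ext fun _ => and_congr_right fun _ => by rw [he.2]

theorem E_comm (he : e ∈ E[D] d) (hc : c ∈ D) (h : Commute c d) : Commute c e := ((mem_E.1 he).2 c hc).1 h

theorem E_comm' (he : e ∈ E[D] d) (he' : e' ∈ E[D] d) : Commute e e' :=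
  E_comm he' he.1 (((mem_E.1 he).2 e he.1).2 (Commute.refl e))

theorem E_cj (hD : IsRootInvolutionSet D) (he : e ∈ E[D] d) (g : G) : g * e * g⁻¹ ∈ E[D] (g * d * g⁻¹) := by
  have key : ∀ c a : G, Commute c (g * a * g⁻¹) ↔ Commute (g⁻¹ * c * g⁻¹⁻¹) a := fun c a =>
    ⟨fun h => by simpa [mul_assoc] using commute_cj h g⁻¹, fun h => by simpa [mul_assoc] using commute_cj h g⟩
  exact mem_E.2 ⟨hD.conj_mem e he.1 g, fun c hc => by
    rw [key, key]; exact (mem_E.1 he).2 _ (hD.conj_mem c hc _)⟩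

/-- `G` is generated by `E_d` and the opposite element `x` -/
structure Hy (D : Set G) (d x : G) : Prop where
  md : d ∈ D
  mx : x ∈ D
  od : Od d x
  gen : closure (E[D] d ∪ {x}) = ⊤

section
variable [Finite G] (hD : IsOddTranspositionSet D)
include hD

theorem ot_cases (ha : a ∈ D) (hb : b ∈ D) : Commute a b ∨ Od a b :=
  ((ri_of hD.1).cases ha hb).imp_right fun h => h.resolve_right (hD.2 a ha b hb)

theorem comm_of_mul (ha : a ∈ D) (hb : b ∈ D) (hc : Commute a b) (hne : b ≠ a) (hy : y ∈ D)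
    (h1 : Commute (a * b) y) : Commute a y := by
  have h := ri_of hD.1
  refine (((Agent.S5363.result hD.1.orderOf_eq fun g d hd => hD.1.conj_mem d hd g).1 (fun a ha b hb => ?_)
    a ha b hb hne hc).le ⟨hy, h1⟩).1.2
  by_cases e : a = b
  · exact Or.inl (by rw [e, h.sq b hb]; simp)
  · exact ((ot_cases hD ha hb).imp (fun h1 => H6.ord2_mul_of_commute (h.sq a ha) (h.sq b hb) h1 e) And.right).symm

theorem mem_E_of_mul (ha : a ∈ D) (hb : b ∈ D) (hc : Commute a b) (he : a * b ∈ D) : b ∈ E[D] a := by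
  have h := ri_of hD.1
  have key : ∀ {a b}, a ∈ D → b ∈ D → Commute a b → a * b ∈ D → ∀ y ∈ D, Commute y a → Commute y b :=
    fun {a b} ha hb hc he y hy h1 => (comm_of_mul hD hb he (hc.symm.mul_right (Commute.refl b))
      (fun e => h.ne a ha (by simpa using e)) hy (by rw [hc.eq, h.mul_mul hb]; exact h1.symm)).symm
  exact mem_E.2 ⟨hb, fun y hy => ⟨key ha hb hc he y hy, key hb ha hc.symm (hc.eq ▸ he) y hy⟩⟩

theorem Hy.of_E (H : Hy D d x) (he : e ∈ E[D] d) : Hy D e x :=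
  ⟨he.1, H.mx, (ot_cases hD he.1 H.mx).resolve_left fun h1 => (ri_of hD.1).od_not_comm H.md H.mx H.od
    (((mem_E.1 he).2 x H.mx).2 h1.symm).symm, E_eq he ▸ H.gen⟩

theorem Hy.symm (H : Hy D d x) : Hy D x d := by
  have h := ri_of hD.1
  obtain ⟨t, m, -⟩ := exists_mid h H.md H.mx H.od
  refine ⟨H.mx, H.md, H.od.symm, ?_⟩
  rw [eq_top_iff, ← map_top_of_surjective (MulAut.conj t).toMonoidHom (MulAut.conj t).surjective, ← H.gen,
    MonoidHom.map_closure, closure_le]
  rintro _ ⟨s, hs | rfl, rfl⟩ <;> refine subset_closure ?_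
  exacts [Or.inl (m.cj ▸ E_cj hD.1 hs t), Or.inr (m.cj' h)]

variable (hO : pCore 2 G = ⊥)
include hO

theorem Hy.dich (H : Hy D d x) (hc : c ∈ D) (h1 : Commute d c) :
    d * c ∈ D ∨ Commute x (d * c * x * (d * c)⁻¹) := by
  have h := ri_of hD.1
  by_cases hne : c = d
  · rw [hne, h.sq d H.md]; simp
  refine ((ot_cases hD H.mx (hD.1.conj_mem x H.mx _)).imp_right fun ho => ?_).symm
  have w2 : d * c * (d * c) = 1 := H6.ord2_mul_self (H6.ord2_mul_of_commute (h.sq d H.md) (h.sq c hc) h1 (Ne.symm hne))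
  obtain ⟨t, m, -⟩ := exists_mid h H.mx (hD.1.conj_mem x H.mx _) ho
  have h2 := m.comm_swap hD.1 rfl w2
  have h3 := comm_of_mul hD H.md hc h1 hne m.mem h2
  have h4 : t * (d * c) ∈ center G := mem_center_iff.2 fun g => mem_centralizer_singleton_iff.1
    ((closure_le (centralizer {t * (d * c)})).2 (by
      rintro s (hs | rfl) <;> refine mem_centralizer_singleton_iff.2 (Commute.symm ?_)
      exacts [(E_comm hs m.mem h3.symm).mul_left ((E_comm hs H.md rfl).mul_left (E_comm hs hc h1.symm)),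
        m.cent hD.1 rfl]) (H.gen ▸ mem_top g))
  have := H1.normal_of_le_center (zpowers_le.2 h4)
  by_cases h5 : t * (d * c) = 1
  · rw [← inv_eq_of_mul_eq_one_right h5, h.inv m.mem]; exact m.mem
  have h6 := H6.ord2_mul_of_commute (h.sq t m.mem) w2 h2.symm fun e => h5 (e ▸ h.sq t m.mem)
  exact absurd (mem_bot.1 (hO ▸ H1.le_pCore (H11.ZD.Two.of_ord h6).pg (mem_zpowers _))) h5

theorem Hy.mem_E_of_comm (H : Hy D d x) (hl : Lined D) (hc : c ∈ D) (h1 : Commute d c) : c ∈ E[D] d := by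
  have h := ri_of hD.1
  by_contra hn
  obtain ⟨b, hb, h2, h3⟩ := hl d H.md
  have hb' := mem_E_of_mul hD H.md hb h2 h3
  have h4 := mem_E_of_mul hD H.md h3 ((Commute.refl d).mul_right h2) (by rwa [h.mul_mul H.md])
  have bc := (E_comm hb' hc h1.symm).symm
  have k1 := (H.dich hD hO hc h1).resolve_left fun e => hn (mem_E_of_mul hD H.md hc h1 e)
  have k2 := ((H.of_E hD hb').dich hD hO hc bc).resolve_left fun e => hn (E_eq hb' ▸ mem_E_of_mul hD hb hc bc e)
  have m : Mid D x (d * b * x * (d * b)⁻¹) (d * b) := ⟨h3, (H.of_E hD h4).od.symm, rfl⟩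
  have k3 := commute_cj k2 (d * b)
  rw [show d * b * (b * c * x * (b * c)⁻¹) * (d * b)⁻¹ = d * (b * b) * c * x * (d * (b * b) * c)⁻¹ by group,
    h.sq b hb, mul_one] at k3
  have k4 := commute_cj (m.comm_fix hD.1 k1.symm k3.symm) (d * c)⁻¹
  rw [cj_eq (((Commute.refl d).mul_right h2).mul_left (h1.symm.mul_right bc.symm)).inv_left] at k4
  exact h.od_not_comm h3 H.mx (H.of_E hD h4).od (by simpa [mul_assoc] using k4.symm)

theorem Hy.cj_mem_E (H : Hy D d x) (hc : Cls D) (hn : ∀ a ∈ D, ∀ b ∈ D, Commute a b → a * b ∉ D)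
    (he : e ∈ E[D] d) (hy : y ∈ E[D] x) : d * e * y * (d * e)⁻¹ ∈ E[D] x := by
  have h := ri_of hD.1
  have key : ∀ e ∈ E[D] d, commutingMembers D (e * x * e⁻¹) = (fun c => c * x * c⁻¹) '' commutingMembers D d := by
    intro e he
    have H' := H.of_E hD he
    have h1 : ∀ c ∈ commutingMembers D d, Commute (c * x * c⁻¹) (e * x * e⁻¹) := fun c hC => by
      have h2 := (E_comm he hC.1 hC.2).symm
      have := commute_cj ((H'.dich hD hO hC.1 h2).resolve_left (hn e he.1 c hC.1 h2)) e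
      rw [show e * (e * c * x * (e * c)⁻¹) * e⁻¹ = e * e * c * x * (e * e * c)⁻¹ by group, h.sq e he.1, one_mul] at this
      exact this.symm
    have h2 : ∀ c ∈ commutingMembers D d, Mid D x (c * x * c⁻¹) c := fun c hC =>
      ⟨hC.1, (ot_cases hD H.mx hC.1).resolve_left fun h3 => h.od_not_comm H.mx (h.cj x H.mx e he.1)
        (h.od_cj he.1 H.mx H'.od) (by simpa only [cj_eq h3.symm] using h1 c hC), rfl⟩
    refine (Set.eq_of_subset_of_ncard_le ?_ ?_).symm
    · rintro _ ⟨c, hC, rfl⟩; exact ⟨h.cj x H.mx c hC.1, h1 c hC⟩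
    rw [Set.InjOn.ncard_image fun c hC c' hC' e => (h2 c hC).unique h (by
      rw [show c * x * c⁻¹ = c' * x * c'⁻¹ from e]; exact h2 c' hC')]
    obtain ⟨g, -, e1⟩ := hc _ (h.cj x H.mx e he.1) d H.md
    refine Set.ncard_le_ncard_of_injOn (fun c => g * c * g⁻¹) (fun c hC => ⟨hD.1.conj_mem c hC.1 g, ?_⟩)
      fun c _ c' _ e => by simpa using e
    exact e1 ▸ commute_cj hC.2 g
  have h1 : e * x * e⁻¹ ∈ E[D] (d * x * d⁻¹) := ⟨h.cj x H.mx e he.1, (key d (self_E H.md)).trans (key e he).symm⟩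
  have h2 := E_cj hD.1 h1 d
  rw [show d * (d * x * d⁻¹) * d⁻¹ = d * d * x * (d * d)⁻¹ by group, h.sq d H.md,
    show d * (e * x * e⁻¹) * d⁻¹ = d * e * x * (d * e)⁻¹ by group] at h2
  simp only [one_mul, inv_one, mul_one] at h2
  exact E_eq h2 ▸ E_cj hD.1 hy (d * e)

theorem Hy.eq_of_not (H : Hy D d x) (hc : Cls D) (hn : ∀ a ∈ D, ∀ b ∈ D, Commute a b → a * b ∉ D)
    (he : e ∈ E[D] d) : e = d := by
  have h := ri_of hD.1
  have := Fact.mk Nat.prime_two
  let R : G → Subgroup G := fun d => closure (E[D] d * E[D] d)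
  have nm : ∀ (S : Set G) (K : Subgroup G) (g : G), K = closure S → (∀ s ∈ S, g * s * g⁻¹ ∈ K) → g ∈ normalizer K := by
    rintro S _ g rfl h1
    refine mem_normalizer_fintype fun s hs => ?_
    exact (closure_le ((closure S).comap (MulAut.conj g).toMonoidHom)).2 h1 hs
  have pR : ∀ d, IsPGroup 2 (R d) := fun d => (isPGroup_closure_of_comm (fun s hs => h.sq s hs.1)
    fun s hs t ht => E_comm' (d := d) hs ht).to_le ((closure_le _).2 (by
      rintro _ ⟨s, hs, t, ht, rfl⟩; exact mul_mem (subset_closure hs) (subset_closure ht)))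
  have k1 : ∀ {d x}, Hy D d x → ∀ e ∈ E[D] d, ∀ e' ∈ E[D] d, ∀ y ∈ E[D] x, e * e' * y * (e * e')⁻¹ ∈ E[D] x :=
    fun H e he e' he' y hy => (H.of_E hD he).cj_mem_E hD hO hc hn (E_eq he ▸ he') hy
  have k2 : ∀ {d x}, Hy D d x → ∀ e ∈ E[D] d, e ∈ normalizer (R d ⊔ R x : Subgroup G) := fun {d x} H e he =>
    nm _ _ e (closure_union _ _).symm (by
      rintro _ (⟨s, hs, t, ht, rfl⟩ | ⟨s, hs, t, ht, rfl⟩)
      · rw [cj_eq ((E_comm' he hs).mul_right (E_comm' he ht))]
        exact mem_sup_left (subset_closure ⟨s, hs, t, ht, rfl⟩)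
      · rw [show e * (s * t) * e⁻¹ = e * (s * t * e⁻¹ * (s * t)⁻¹) * (s * t) by group, h.inv he.1]
        exact mul_mem (mem_sup_left (subset_closure ⟨e, he, _, k1 (H.symm hD) s hs t ht e he, rfl⟩))
          (mem_sup_right (subset_closure ⟨s, hs, t, ht, rfl⟩)))
  have hN : (R d ⊔ R x).Normal := normalizer_eq_top_iff.1 (eq_top_iff.2 (H.gen ▸ (closure_le _).2 (by
    rintro s (hs | rfl)
    exacts [k2 H s hs, sup_comm (R s) (R d) ▸ k2 (H.symm hD) s (self_E H.mx)])))
  have hP := IsPGroup.to_sup_of_normal_right' (pR d) (pR x) ((closure_le _).2 (by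
    rintro _ ⟨s, hs, t, ht, rfl⟩
    refine nm _ _ _ rfl ?_
    rintro _ ⟨y, hy, z, hz, rfl⟩
    exact conj_mul' (s * t) y z ▸ subset_closure ⟨_, k1 H s hs t ht y hy, _, k1 H s hs t ht z hz, rfl⟩))
  have : e * d = 1 := mem_bot.1 (hO ▸ H1.le_pCore hP (mem_sup_left (subset_closure ⟨e, he, d, self_E H.md, rfl⟩)))
  rw [eq_inv_of_mul_eq_one_left this, h.inv H.md]

end

theorem ZD.hy (zd : ZD.{u}) {G : Type u} [Group G] [Finite G] {D : Set G} (hD : IsOddTranspositionSet D)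
    (hO : pCore 2 G = ⊥) (hc : Cls D) {d x : G} (H : Hy D d x) :
    LS G ∧ Lined D ∨ E[D] d = {d} ∧ Nonempty (G ≃* DihedralGroup (orderOf (d * x))) := by
  have h := ri_of hD.1
  by_cases hn : ∀ a ∈ D, ∀ b ∈ D, Commute a b → a * b ∉ D
  · have h1 : E[D] d = {d} := Set.eq_singleton_iff_unique_mem.2 ⟨self_E H.md, fun e => H.eq_of_not hD hO hc hn⟩
    obtain ⟨e⟩ := Agent.S0206.result d x (hD.1.orderOf_eq d H.md) (hD.1.orderOf_eq x H.mx) H.od.1
    exact Or.inr ⟨h1, ⟨(topEquiv.symm.trans (MulEquiv.subgroupCongr (by rw [← H.gen, h1]; rfl))).trans e⟩⟩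
  push Not at hn
  obtain ⟨a, ha, b, hb, h1, h2⟩ := hn
  have hDD : (D ∩ commutingProducts D).Nonempty := ⟨_, h2, a, ha, b, hb, h1, h.ne _ h2, rfl⟩
  have hl := h.lined hc hDD
  have h3 : ¬ Cn D d x := fun e => by
    have key : ∀ c, Cn D d c → c ∈ E[D] d := fun c h1 => by
      induction h1 with
      | refl => exact self_E H.md
      | tail _ h2 ih => exact E_eq ih ▸ (H.of_E hD ih).mem_E_of_comm hD hO hl h2.2.1 h2.2.2.2
    exact h.od_not_comm H.md H.mx H.od (E_comm' (self_E H.md) (key x e))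
  obtain ⟨_, h4, M, hM⟩ := zd.dc hD.1 hDD H.md H.mx h3
  have h5 : LS (G ⧸ twoZCore G) := ls_of_gen hM h4 (S := QuotientGroup.mk' _ '' E[D] d) (y := QuotientGroup.mk' _ x)
    (by rintro _ ⟨s, hs, rfl⟩; rw [← map_mul, h.sq s hs.1, map_one])
    (by rintro _ ⟨s, hs, rfl⟩ _ ⟨t, ht, rfl⟩; exact (E_comm' hs ht).map _) (by rw [← map_mul, h.sq x H.mx, map_one])
    (by rw [← Set.image_singleton, ← Set.image_union, ← MonoidHom.map_closure, H.gen,
      map_top_of_surjective _ (QuotientGroup.mk'_surjective _)])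
  have h6 := center_bot_of_ls (perfect_of_lined hD.1 hc hl) hO (fun z hz => mem_center_iff.2 fun g => by
    have := mem_center_iff.1 hz (QuotientGroup.mk' _ g)
    rw [← map_mul, ← map_mul] at this
    exact (MonoidHom.ker_eq_bot_iff _).1 ((QuotientGroup.ker_mk' _).trans hO) this) h5
  exact Or.inl ⟨h5.of_iso ((QuotientGroup.quotientMulEquivOfEq h6).trans QuotientGroup.quotientBot).symm, hl⟩

end H12.RD
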