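import Cfsg.Agent.H12.RD5

/-! Odd transpositions: reductions for groups generated by `E_d` and an opposite element. -/

set_option autoImplicit false
set_option linter.unusedSectionVars false

open Subgroup Cfsg H16 H16.H11

namespace H12.RD

universe u

variable {G : Type*} [Group G] [Finite G] {D : Set G} {d x : G}

local notation "E[" D "]" => sameCommutingClass D

theorem Hy.quot (hD : IsOddTranspositionSet D) (hc : Cls D) (H : Hy D d x) :
    IsOddTranspositionSet (QuotientGroup.mk' (pCore 2 G) '' D) ∧ Cls (QuotientGroup.mk' (pCore 2 G) '' D) ∧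
      Hy (QuotientGroup.mk' (pCore 2 G) '' D) (QuotientGroup.mk' (pCore 2 G) d) (QuotientGroup.mk' (pCore 2 G) x) := by
  have h := ri_of hD.1
  have hf := QuotientGroup.mk'_surjective (pCore 2 G)
  have h2 : ∀ a ∈ D, ∀ b ∈ D, Od a b → QuotientGroup.mk' (pCore 2 G) a ≠ QuotientGroup.mk' (pCore 2 G) b :=
    fun a ha b hb ho e => by
      obtain ⟨k, hk⟩ := H1.isPGroup_pCore (G := G) 2 ⟨a⁻¹ * b, QuotientGroup.eq.1 e⟩
      have h3 : (a * b) ^ 2 ^ k = 1 := by simpa [h.inv ha] using congrArg Subtype.val hk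
      have := orderOf_eq_one_iff.1 (((Nat.coprime_two_right.2 ho.2).pow_right k).eq_one_of_dvd
        (orderOf_dvd_of_pow_eq_one h3))
      exact ho.1 (by rw [eq_inv_of_mul_eq_one_left this, h.inv hb])
  have h1 : ∀ a ∈ D, QuotientGroup.mk' (pCore 2 G) a ≠ 1 := fun a ha e => by
    have h3 := eq_top_of_mem hD.1 hc ha ((QuotientGroup.eq_one_iff a).1 e)
    exact h.not_od_of_pgroup (H1.isPGroup_pCore 2) (h3 ▸ mem_top d) (h3 ▸ mem_top x) H.mx H.od
  generalize QuotientGroup.mk' (pCore 2 G) = f at *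
  have hD' := img_set hD.1 hf h1
  refine ⟨⟨hD', ?_⟩, ?_, ⟨d, H.md, rfl⟩, ⟨x, H.mx, rfl⟩, ⟨h2 d H.md x H.mx H.od,
    map_mul f d x ▸ H.od.2.of_dvd_nat (orderOf_map_dvd f _)⟩, ?_⟩
  · rintro _ ⟨a, ha, rfl⟩ _ ⟨b, hb, rfl⟩ e
    rcases ot_cases hD ha hb with e1 | e1
    · exact (ri_of hD').v4_not_comm ⟨a, ha, rfl⟩ ⟨b, hb, rfl⟩ e (e1.map f)
    · have := e1.2.of_dvd_nat (orderOf_map_dvd f _)
      rw [map_mul, e] at this
      exact absurd this (by decide)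
  · rintro _ ⟨a, ha, rfl⟩ _ ⟨b, hb, rfl⟩
    obtain ⟨g, -, rfl⟩ := hc a ha b hb
    exact ⟨f g, hD'.generates ▸ mem_top _, by simp⟩
  · rw [eq_top_iff, ← map_top_of_surjective f hf, ← H.gen, MonoidHom.map_closure, closure_le]
    rintro _ ⟨s, hs | rfl, rfl⟩ <;> refine subset_closure ?_
    · refine Or.inl (mem_E.2 ⟨⟨s, hs.1, rfl⟩, ?_⟩)
      rintro _ ⟨c, hC, rfl⟩
      exact ⟨fun e => (E_comm hs hC (comm_of_map h h1 h2 hC H.md e)).map f,
        fun e => (((mem_E.1 hs).2 c hC).2 (comm_of_map h h1 h2 hC hs.1 e)).map f⟩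
    · exact Or.inr rfl

theorem exists_hy (hD : IsOddTranspositionSet D) (hd : d ∈ D) (hx : x ∈ D) (ho : Od d x) {X : Subgroup G}
    (hX : closure (E[D] d ∪ {x}) = X) : ∃ (D' : Set X) (d' x' : X), IsOddTranspositionSet D' ∧ Cls D' ∧ Hy D' d' x' ∧
      d' = d ∧ x' = x ∧ (∀ c ∈ D', (c : G) ∈ D) ∧ ∀ c : X, (c : G) ∈ E[D] d → c ∈ E[D'] d' := by
  have h := ri_of hD.1
  have xX : x ∈ X := hX ▸ subset_closure (Or.inr rfl)
  have eX : ∀ e ∈ E[D] d, e ∈ X := fun e he => hX ▸ subset_closure (Or.inl he)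
  let C : Set G := {b | ∃ g ∈ X, g * x * g⁻¹ = b}
  have CD : C ⊆ D := by rintro _ ⟨g, -, rfl⟩; exact hD.1.conj_mem x hx g
  have CX : ∀ b ∈ C, b ∈ X := by rintro _ ⟨g, hg, rfl⟩; exact mul_mem (mul_mem hg xX) (inv_mem hg)
  have cjC : ∀ b ∈ C, ∀ g ∈ X, g * b * g⁻¹ ∈ C := by
    rintro _ ⟨k, hk, rfl⟩ g hg; exact ⟨g * k, mul_mem hg hk, by group⟩
  have xC : x ∈ C := ⟨1, one_mem _, by simp⟩
  have eC : ∀ e ∈ E[D] d, e ∈ C := fun e he => cj_of_od h hx he.1 ((ot_cases hD hx he.1).resolve_left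
    fun h1 => h.od_not_comm hd hx ho (((mem_E.1 he).2 x hx).2 h1).symm) xX (eX e he)
  have hC : RI C := ⟨fun d hd => h.sq d (CD hd), fun d hd => h.ne d (CD hd), fun d hd e he => cjC d hd e (CX e he),
    fun b hb c hc => (ot_cases hD (CD hb) (CD hc)).imp_right fun e => Or.inl e.2⟩
  have e : closure C = X := le_antisymm ((closure_le _).2 CX) (hX ▸ closure_mono (by
    rintro s (hs | rfl); exacts [eC s hs, xC]))
  have hD' : IsRootInvolutionSet (X.subtype ⁻¹' C) := e ▸ sub_set hC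
  have hE : ∀ c : X, (c : G) ∈ E[D] d → c ∈ E[X.subtype ⁻¹' C] ⟨d, eX d (self_E hd)⟩ := fun c hc =>
    mem_E.2 ⟨eC c hc, fun b hb => Subtype.ext_iff.trans (((mem_E.1 hc).2 b (CD hb)).trans
      (Subtype.ext_iff (a1 := b * c) (a2 := c * b)).symm)⟩
  refine ⟨_, ⟨d, eX d (self_E hd)⟩, ⟨x, xX⟩, ⟨hD', fun a ha b hb e => hD.2 a (CD ha) b (CD hb)
    ((orderOf_coe _).trans e)⟩, ?_, ⟨eC d (self_E hd), xC, ⟨fun e => ho.1 (congrArg Subtype.val e),
      by rw [← orderOf_coe]; exact ho.2⟩, ?_⟩, rfl, rfl, fun c hc => CD hc, hE⟩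
  · rintro a ⟨g, hg, e1⟩ b ⟨k, hk, e2⟩
    refine ⟨⟨k * g⁻¹, mul_mem hk (inv_mem hg)⟩, hD'.generates ▸ mem_top _, Subtype.ext ?_⟩
    change k * g⁻¹ * X.subtype a * (k * g⁻¹)⁻¹ = X.subtype b
    rw [← e1, ← e2]; group
  · subst hX
    rw [eq_top_iff, ← closure_preimage_eq_top]
    exact closure_mono (by
      rintro s (hs | hs)
      exacts [Or.inl (hE s hs), Or.inr (Subtype.ext hs)])

end H12.RD
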