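import Cfsg.Agent.H12.Rb3

/-! Eigenspaces of elements normalizing an absolutely irreducible group of symplectic type. -/

set_option autoImplicit false
set_option linter.unusedSectionVars false

namespace H12.Rb
open Module H2 Subgroup H16
open scoped commutatorElement

variable {G : Type*} [Group G] [Finite G]
variable {F V : Type*} [Field F] [AddCommGroup V] [Module F V] [FiniteDimensional F V]
variable [IsAlgClosed F] [Nontrivial V]
variable {ρ : G →* End F V} {Q A B : Subgroup G} {x : G} {p : ℕ}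

theorem ri {A B : Subgroup G} (C : Subgroup G) (h : A ≤ B) : (B ⊓ C).relIndex A = C.relIndex A := by
  rw [← inf_relIndex_left A, ← inf_assoc, inf_of_le_left h, inf_relIndex_left]

theorem HS.card' (h : HS ρ Q) (hA : A ≤ Q) : (Nat.card A : F) ≠ 0 := fun e => h.card (by
  obtain ⟨c, hc⟩ := card_dvd_of_le hA
  rw [hc, Nat.cast_mul, e, zero_mul])

theorem HS.scal' (h : HS ρ Q) {a b : G} (ha : a ∈ Q) (hb : b ∈ Q) :
    ∃ c : F, ρ ⁅a, b⁆ = c • 1 :=
  h.scal _ ⟨der_le Q (commutator_mem_commutator ha hb), h.comm (commutator_mem_commutator ha hb)⟩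

theorem HS.dual_le (h : HS ρ Q) (hA : A ≤ Q) (hB : B ≤ Q) :
    C[B].relIndex A ≤ C[A].relIndex B := by
  let σ := ρ.comp B.subtype
  have h1 : ∀ y : A, ∃ l : B →* Fˣ, ρ y ∈ wsp (endRep σ σ) l := fun y =>
    exists_wsp_of_eigen _ (rep_ne_zero ρ y) fun x => by
      obtain ⟨c, hc⟩ := h.scal' (hB x.2) (hA y.2)
      refine ⟨c, ?_⟩
      have h4 : (x : G) * y * (x : G)⁻¹ = ⁅(x : G), (y : G)⁆ * y := by rw [commutatorElement_def]; group
      rw [endRep_apply]
      simp only [σ, MonoidHom.comp_apply, subtype_apply, coe_inv]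
      rw [← map_mul, ← map_mul, h4, map_mul, hc, smul_mul_assoc, one_mul]
  choose χ hχ using h1
  have h2 : ∀ (y : A) (k : B), ρ (k * y * (k : G)⁻¹) = (χ y k : F) • ρ y := fun y k => by
    rw [map_mul, map_mul]; exact hχ y k
  have := finite_weights (h.card' hB)
  rw [relIndex, relIndex, ← card_triv (h.card' hB) (Y := C[A].subgroupOf B) (fun z hz =>
    cent_anti hA (h.comm (der_mono hB (by
      rw [← map_subtype_commutator]; exact mem_map_of_mem _ hz))))]
  refine Nat.card_le_card_of_injective (fun c => ⟨χ c.out, fun z hz => ?_⟩) fun a b e => ?_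
  · have := h2 c.out z
    rw [← show _ * (z : G) = (z : G) * _ from mem_cent.1 hz _ c.out.2, mul_inv_cancel_right] at this
    exact Units.ext (smul_left_injective F (rep_ne_zero ρ c.out) (by simpa using this.symm))
  · have e : χ a.out = χ b.out := congrArg Subtype.val e
    rw [← a.out_eq', ← b.out_eq', QuotientGroup.eq]
    refine mem_cent.2 fun k hk => ?_
    have a1 : ρ (k * a.out * k⁻¹) = _ := h2 a.out ⟨k, hk⟩
    have a2 : ρ (k * b.out * k⁻¹) = _ := h2 b.out ⟨k, hk⟩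
    have a3 : k * a.out * k⁻¹ * (a.out : G)⁻¹ = k * b.out * k⁻¹ * (b.out : G)⁻¹ := h.injective (by
      rw [map_mul, map_mul _ _ (b.out : G)⁻¹, a1, a2, e, smul_mul_assoc, smul_mul_assoc,
        rep_mul_inv, rep_mul_inv])
    simp only [subtype_apply, coe_mul, coe_inv]
    generalize (a.out : G) = u at *
    generalize (b.out : G) = v at *
    calc k * (u⁻¹ * v) = (k * u * k⁻¹)⁻¹ * (k * v * k⁻¹ * v⁻¹) * v * k := by group
      _ = u⁻¹ * v * k := by rw [← a3]; group

theorem HS.dual (h : HS ρ Q) (hA : A ≤ Q) (hB : B ≤ Q) : C[B].relIndex A = C[A].relIndex B :=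
  le_antisymm (h.dual_le hA hB) (h.dual_le hB hA)

theorem HS.dvd (h : HS ρ Q) (hA : A ≤ Q) (K : Submodule F V) (hK : ∀ k ∈ A, ∀ v ∈ K, ρ k v ∈ K)
    {u : ℕ} (hu : C[A].relIndex A = u ^ 2) : u ∣ finrank F K := by
  classical
  let σ := resRep (ρ.comp A.subtype) K fun k => hK k k.2
  let Z := C[A].subgroupOf A
  let τ := σ.comp Z.subtype
  have hZ : (Nat.card Z : F) ≠ 0 := fun e => h.card' hA (by
    obtain ⟨c, hc⟩ := Z.card_subgroup_dvd_card
    rw [hc, Nat.cast_mul, e, zero_mul])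
  have hc : ∀ (z : Z) (k : A), k * z = z * k := fun z k => Subtype.ext (mem_cent.1 z.2 k k.2)
  have := Fintype.ofFinite Z
  have := finite_weights hZ
  have := Fintype.ofFinite (Z →* Fˣ)
  have h1 := sum_finrank_wsp τ (by rwa [← Nat.card_eq_fintype_card])
  have : IsMulCommutative Z := ⟨⟨fun a b => Subtype.ext (hc b a)⟩⟩
  rw [commutator_eq_bot, fix_bot, finrank_top] at h1
  rw [← h1]
  refine Finset.dvd_sum fun l _ => ?_
  by_cases h0 : wsp τ l = ⊥
  · rw [h0, finrank_bot]; exact dvd_zero _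
  have : Nontrivial (wsp τ l) := Submodule.nontrivial_iff_ne_bot.2 h0
  have H : Heis (resRep σ (wsp τ l) fun k v hv z => by
      have := hv z
      simp only [τ, MonoidHom.comp_apply, subtype_apply] at this ⊢
      rw [← End.mul_apply, ← map_mul, ← hc, map_mul, End.mul_apply, this, map_smul]) Z :=
    ⟨fun z hz => cent_anti hA (h.comm (der_mono hA (by
        rw [← map_subtype_commutator]; exact mem_map_of_mem _ hz))),
      fun z hz => ⟨l ⟨z, hz⟩, LinearMap.ext fun v => Subtype.ext (v.2 ⟨z, hz⟩)⟩,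
      fun a ha => mem_cent.2 fun b hb => by
        obtain ⟨c, hc⟩ := h.scal' (hA hb) (hA a.2)
        obtain ⟨v, hv⟩ := exists_ne (0 : wsp τ l)
        have e1 : ρ a (ρ b v) = ρ b (ρ a v) :=
          congrArg (fun t => (t.1.1 : V)) (LinearMap.congr_fun (ha ⟨b, hb⟩) v)
        have e2 : b * a = ⁅b, (a : G)⁆ * (a * b) := by rw [commutatorElement_def]; group
        rw [← End.mul_apply, ← End.mul_apply, ← map_mul, ← map_mul, e2, map_mul _ ⁅b, (a : G)⁆, hc,
          smul_mul_assoc, one_mul, LinearMap.smul_apply] at e1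
        have e3 : ρ (a * b) v ≠ 0 := fun e => hv (Subtype.ext (Subtype.ext (by
          rw [← rep_inv_apply ρ (a * b) v, e, map_zero]; rfl)))
        have e4 : c = 1 := smul_left_injective F e3 (by simpa using e1.symm)
        exact commutatorElement_eq_one_iff_mul_comm.1 (h.injective (hc.trans (by rw [e4]; simp)))⟩
  have h2 := heis_sq H (h.card' hA)
  exact (Nat.pow_dvd_pow_iff two_ne_zero).1 ⟨_, by rw [h2, mul_comm, ← hu]; rfl⟩

theorem HS.cent_comm (h : HS ρ Q) (hx : x ∈ N[Q]) : Q ⊓ C[zpowers x] ≤ C[⁅Q, zpowers x⁆] := by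
  refine cent_symm (comm_eq_bot.1 (commutator_commutator_eq_bot_of_rotate ?_ ?_))
  · rw [comm_eq_bot.2 (cent_symm inf_le_right), commutator_bot_left]
  · exact comm_eq_bot.2 ((le_inf (comm_le inf_le_left le_rfl) ((comm_le_der inf_le_left le_rfl).trans
      h.comm)).trans (h.cen.trans (center_le_centralizer _)))

theorem HS.rad (h : HS ρ Q) (hx : x ∈ N[Q])
    (hb : ∀ y ∈ Q, ⁅x, y⁆ ∈ Q ⊓ C[Q] → ⁅x, y⁆ = 1) : ∃ C ≤ Q ⊓ C1[x],
      C[Q].relIndex C * sx Q x = C[Q].relIndex Q ∧ Q ⊓ C[C] = ⁅Q, zpowers x⁆ ⊔ Q ⊓ C[Q] ∧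
      Q ⊓ C1[x] ≤ C := by
  have hX : zpowers x ≤ N[Q] := zpowers_le.2 hx
  set L := ⁅Q, zpowers x⁆ ⊔ Q ⊓ C[Q] with hL
  have hLQ : L ≤ Q := sup_le (comm_le_left hX) inf_le_left
  have hs : sx Q x = C[Q].relIndex L := ri _ hLQ
  have k : ∀ A, Q ⊓ C[Q] ≤ A → A ≤ Q → C[Q].relIndex A * A.relIndex Q = C[Q].relIndex Q :=
    fun A a b => by rw [← ri _ b, relIndex_mul_relIndex _ A Q a b, inf_relIndex_left]
  have c1 : Q ⊓ C[Q] ≤ Q ⊓ C[L] := inf_le_inf_left _ (cent_anti hLQ)
  have c2 : C[Q].relIndex (Q ⊓ C[L]) * sx Q x = C[Q].relIndex Q := by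
    rw [hs, ← h.dual le_rfl hLQ, ← inf_relIndex_left Q, k _ c1 inf_le_left]
  refine ⟨Q ⊓ C[L], le_inf inf_le_left fun y hy => mem_cent1.2
    (commutatorElement_eq_one_iff_mul_comm.1 (hb y hy.1 ?_)).symm, c2, ?_, le_inf inf_le_left
      (le_cent_sup ((inf_le_inf_left _ (cent_zpowers x).ge).trans (h.cent_comm hx))
        (cent_symm (h.cen.trans (center_le_centralizer _))))⟩
  · have : ⁅zpowers x, Q ⊓ C[L]⁆ ≤ Q ⊓ C[Q] := le_inf ((commutator_mono le_rfl inf_le_left).trans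
      (comm_le_right hX)) (comm_eq_bot.1 (commutator_commutator_eq_bot_of_rotate
        (comm_eq_bot.2 ((le_inf (comm_le inf_le_left le_rfl) ((comm_le_der inf_le_left le_rfl).trans
          h.comm)).trans (h.cen.trans (center_le_centralizer _))))
        (comm_eq_bot.2 (le_sup_left.trans (cent_symm inf_le_right)))))
    exact this (commutator_mem_commutator (mem_zpowers x) hy)
  · have a1 : L ≤ Q ⊓ C[Q ⊓ C[L]] := le_inf hLQ (cent_symm inf_le_right)
    have a2 := k L le_sup_right hLQ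
    have a3 := h.dual (A := Q) (B := Q ⊓ C[L]) le_rfl inf_le_left
    rw [← inf_relIndex_left Q, ] at a3
    rw [← hs, ← c2, ← a3, mul_comm, ← relIndex_mul_relIndex L _ Q a1 inf_le_left, mul_assoc,
      mul_eq_right₀ (mul_ne_zero (H16.relIndex_pos _ _).ne' (hs ▸ (H16.relIndex_pos _ _).ne'))] at a2
    exact le_antisymm (relIndex_eq_one.1 a2) a1

theorem eig_comm (a : F) (x y : G) : 2 * finrank F ((ρ x).eigenspace a) ≤
    finrank F V + finrank F ((ρ ⁅x, y⁆).eigenspace 1) := by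
  have h1 := Submodule.finrank_sup_add_finrank_inf_eq ((ρ x).eigenspace a)
    (((ρ x).eigenspace a).map (ρ y))
  have h2 : (ρ x).eigenspace a ⊓ ((ρ x).eigenspace a).map (ρ y) ≤ (ρ ⁅x, y⁆).eigenspace 1 := by
    rintro _ ⟨h, w, hw, rfl⟩
    have h3 := End.mem_eigenspace_iff.1 h
    have h4 := End.mem_eigenspace_iff.1 hw
    rw [End.mem_eigenspace_iff, one_smul, ← End.mul_apply, ← map_mul, commutatorElement_def,
      inv_mul_cancel_right, map_mul, map_mul, End.mul_apply, End.mul_apply]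
    have h5 : ρ x (ρ y (ρ x⁻¹ (ρ x w))) = a • ρ x (ρ y (ρ x⁻¹ w)) := by rw [h4]; simp
    rw [rep_inv_apply, h3] at h5
    by_cases ha : a = 0
    · have : w = 0 := by rw [← rep_inv_apply ρ x w, h4, ha]; simp
      simp [this]
    · exact (smul_right_injective V ha h5).symm
  have h3 := Submodule.finrank_mono h2
  have h4 := Submodule.finrank_le ((ρ x).eigenspace a ⊔ ((ρ x).eigenspace a).map (ρ y))
  rw [H9.finrank_map_rep] at h1
  omega

theorem eig_scal {x y : G} {c : F} (hc : ρ ⁅x, y⁆ = c • 1) (a : F) :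
    finrank F ((ρ x).eigenspace a) ≤ finrank F ((ρ x).eigenspace (c * a)) :=
  eig_le (Y := ρ y) (fun a b e => by rw [← rep_inv_apply ρ y a, e, rep_inv_apply]) (by
    rw [← map_mul, show x * y = ⁅x, y⁆ * (y * x) by rw [commutatorElement_def]; group, map_mul,
      hc, map_mul]; simp) a

theorem HS.inner (h : HS ρ Q) {u : G} (hu : u ∈ Q) (hu' : u ∉ C[Q]) :
    2 * finrank F ((ρ u).eigenspace 1) ≤ finrank F V ∧
      (Odd (Nat.card Q) → 3 * finrank F ((ρ u).eigenspace 1) ≤ finrank F V) := by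
  obtain ⟨e, he, h1⟩ : ∃ e ∈ Q, ⁅u, e⁆ ≠ 1 := by
    by_contra hc
    push Not at hc
    exact hu' (mem_cent.2 fun e he => (commutatorElement_eq_one_iff_mul_comm.1 (hc e he)).symm)
  obtain ⟨c, hc⟩ := h.scal' hu he
  have c1 : c ≠ 1 := fun e => h1 (h.injective (by rw [hc, e]; simp))
  have c0 : c ≠ 0 := fun e' => rep_ne_zero ρ ⁅u, e⁆ (by rw [hc, e', zero_smul])
  have a1 := eig_scal hc 1
  have a2 := eig_scal hc (c * 1)
  refine ⟨by have := eig_two (ρ u) (a := 1) (b := c * 1) (by simpa using c1.symm); omega, fun ho => ?_⟩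
  have a3 := eig_three (ρ u) (a := 1) (b := c * 1) (c := c * (c * 1)) (by simpa using c1.symm)
    (fun e' => h1 (by
      have b1 : ⁅u, e⁆ ^ 2 = 1 := h.injective (by
        rw [map_pow, hc, smul_pow, sq, ← mul_one (c * c), mul_assoc, ← e']; simp)
      have b2 := Q.orderOf_dvd_natCard (der_le Q (commutator_mem_commutator hu he))
      exact orderOf_eq_one_iff.1 (Nat.eq_one_of_dvd_coprimes (Nat.coprime_two_left.2 ho)
        (orderOf_dvd_of_pow_eq_one b1) b2))) (by simpa [c0] using c1)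
  omega

theorem HS.abs (h : HS ρ Q) (hs : ∀ φ : End F V, (∀ k ∈ Q, φ * ρ k = ρ k * φ) → ∃ c : F, φ = c • 1) :
    finrank F V ^ 2 = C[Q].relIndex Q := by
  have h1 := heis_sq h.heis h.card
  have h2 : wsp (endRep (ρ.comp Q.subtype) (ρ.comp Q.subtype)) 1 = Submodule.span F {1} := by
    refine le_antisymm (fun f hf => ?_) ?_
    · obtain ⟨c, rfl⟩ := hs f fun k hk => by
        have := congrArg (· * ρ k) (hf ⟨k, hk⟩)
        simpa [endRep_apply, mul_assoc, rep_inv_mul] using this.symm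
      exact Submodule.smul_mem _ c (Submodule.mem_span_singleton_self _)
    · rw [Submodule.span_singleton_le_iff_mem]
      intro k
      simp [endRep_apply, rep_mul_inv]
  rw [h2, finrank_span_singleton one_ne_zero, one_mul] at h1
  rw [h1, ← inf_relIndex_left]; rfl

theorem HS.main (h : HS ρ Q)
    (hs : ∀ φ : End F V, (∀ k ∈ Q, φ * ρ k = ρ k * φ) → ∃ c : F, φ = c • 1) {r : ℕ} (hr : r.Prime)
    (hQ : IsPGroup r Q) (hx : x ∈ N[Q]) (hp : p.Prime) (ho : orderOf x = p)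
    (hn : ∀ c : F, ρ x ≠ c • 1) (a : F) :
    2 * finrank F ((ρ x).eigenspace a) ≤ finrank F V ∨
      (p = 2 ∧ 4 * finrank F ((ρ x).eigenspace a) ≤ 3 * finrank F V) ∨
      (p = 3 ∧ 3 ∣ finrank F V ∧ 3 * finrank F ((ρ x).eigenspace a) ≤ 2 * finrank F V) := by
  have := Fact.mk hr
  have := Fact.mk hp
  have hxp : x ^ p = 1 := ho ▸ pow_orderOf_eq_one x
  have hX : zpowers x ≤ N[Q] := zpowers_le.2 hx
  by_cases h0 : (ρ x).eigenspace a = ⊥
  · left; rw [h0, finrank_bot]; omega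
  have ha : a ^ p = 1 := by
    obtain ⟨v, h1, h2⟩ := Submodule.exists_mem_ne_zero_of_ne_bot h0
    have := H9.rep_pow_of_eigen (End.mem_eigenspace_iff.1 h1) p
    rw [hxp, map_one] at this
    exact smul_left_injective F h2 (by simpa using this.symm)
  have a0 : a ≠ 0 := by rintro rfl; simp [hp.ne_zero] at ha
  by_cases h2 : ∃ y ∈ Q, ⁅x, y⁆ ∈ Q ⊓ C[Q] ∧ ⁅x, y⁆ ≠ 1
  · obtain ⟨y, -, h3, h4⟩ := h2
    obtain ⟨c, hc⟩ := h.scal _ h3
    have a1 := eig_scal hc a
    have a2 := eig_two (ρ x) (a := a) (b := c * a) fun e => h4 (h.injective (by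
      rw [hc, (mul_eq_right₀ a0).1 e.symm]; simp))
    omega
  push Not at h2
  obtain ⟨y, hy, h3⟩ : ∃ y ∈ Q, ⁅x, y⁆ ∉ C[Q] := by
    by_contra hc
    push Not at hc
    obtain ⟨c, e⟩ := hs (ρ x) fun k hk => by
      rw [← map_mul, ← map_mul, commutatorElement_eq_one_iff_mul_comm.1 (h2 k hk
        ⟨comm_le_right hX (commutator_mem_commutator (mem_zpowers x) hk), hc k hk⟩)]
    exact hn c e
  have hu : ⁅x, y⁆ ∈ ⁅Q, zpowers x⁆ := by
    rw [commutator_comm]; exact commutator_mem_commutator (mem_zpowers x) hy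
  have b1 := eig_comm (ρ := ρ) a x y
  obtain ⟨b2, b3⟩ := h.inner (comm_le_left hX hu) h3
  by_cases p2 : p = 2
  · right; left; omega
  have hD := h.abs hs
  have s1 : sx Q x ≠ 1 := fun e => h3 (relIndex_eq_one.1 e (mem_sup_left hu)).2
  obtain ⟨C, c1, c2, c3, c4⟩ := h.rad hx h2
  have c5 := fun u => h.dvd (u := u) (c1.trans inf_le_left) ((ρ x).eigenspace a) fun k hk v hv => by
    rw [End.mem_eigenspace_iff] at hv ⊢
    rw [← End.mul_apply, ← map_mul, ← mem_cent1.1 (c1 hk).2, map_mul, End.mul_apply, hv, map_smul]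
  have hc := h.count hx hp hxp
  have hT : a⁻¹ • ρ x ≠ 1 := fun e => hn a (by rw [← e, smul_inv_smul₀ a0])
  have hK : ∀ v, v ∈ (ρ x).eigenspace a ↔ (a⁻¹ • ρ x) v = v := fun v => by
    rw [End.mem_eigenspace_iff, LinearMap.smul_apply, inv_smul_eq_iff₀ a0]
  have hp3 : p = 3 ∨ 5 ≤ p := (eq_or_ne p 3).imp_right (hp.five_le_of_ne_two_of_ne_three p2)
  by_cases hrp : r = p
  · subst hrp
    rcases hp3 with rfl | h5
    · obtain ⟨k, hk⟩ := hQ.exists_card_eq
      have := b3 (hk ▸ Odd.pow (by decide))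
      refine Or.inr (Or.inr ⟨rfl, Nat.prime_three.dvd_of_dvd_pow (n := 2) ?_, by omega⟩)
      obtain ⟨e, he⟩ := H9.relIndex_eq_pow (hQ.to_le (sup_le (comm_le_left hX) inf_le_left :
        ⁅Q, zpowers x⁆ ⊔ Q ⊓ C[Q] ≤ Q)) (Q ⊓ C[Q])
      rw [hD, ← c2]
      exact Dvd.dvd.mul_left (by
        rw [sx, he]; exact dvd_pow_self 3 (by rintro rfl; exact s1 he)) _
    left
    by_cases s2 : r * r ≤ sx Q x
    · exact (h.big hx hp hxp h5 (by nlinarith) a0 (hn a)).le
    have d1 : ⁅⁅Q, zpowers x⁆ ⊔ Q ⊓ C[Q], zpowers x⁆ ≤ Q ⊓ C[Q] :=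
      by_contra fun e => s2 (h.p_case hQ hx ho e)
    have hL : ⁅Q, zpowers x⁆ ⊔ Q ⊓ C[Q] ≤ Q := sup_le (comm_le_left hX) inf_le_left
    have d2 : ⁅Q, zpowers x⁆ ⊔ Q ⊓ C[Q] ≤ C := le_trans (le_inf hL fun y hy =>
      mem_cent1.2 (commutatorElement_eq_one_iff_mul_comm.1 (h2 y (hL hy) (by
        rw [commutator_comm] at d1
        exact d1 (commutator_mem_commutator (mem_zpowers x) hy)))).symm) c4
    have s3 : sx Q x = r := by
      obtain ⟨e, he⟩ := H9.relIndex_eq_pow (hQ.to_le hL) (Q ⊓ C[Q])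
      rw [sx, he] at s1 s2 ⊢
      rcases e with _ | _ | e
      · simp at s1
      · simp
      · exact absurd (by rw [← sq]; exact Nat.pow_le_pow_right hr.pos (by omega)) s2
    have d3 : sx Q x * C[C].relIndex C = C[Q].relIndex C := by
      have e1 : C[C].relIndex C = (⁅Q, zpowers x⁆ ⊔ Q ⊓ C[Q]).relIndex C := by
        rw [← c3, ri _ (c1.trans inf_le_left)]
      rw [e1, sx, relIndex_mul_relIndex _ _ _ le_sup_right d2, ri _ (c1.trans inf_le_left)]
    rw [← hD, ← d3, s3] at c2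
    obtain ⟨u, hu⟩ : r ∣ finrank F V := hr.dvd_of_dvd_pow (n := 2) (c2 ▸ dvd_mul_left _ _)
    obtain ⟨b, hb⟩ := c5 u (Nat.eq_of_mul_eq_mul_left (show 0 < r * r by positivity) (by
      rw [hu] at c2; linarith))
    have d4 := sq_lt_Cm hT _ fun v => (hK v).1
    rw [Cm_smul _ (inv_ne_zero a0), hb] at d4
    rw [s3, hu] at hc
    rw [hb, hu]
    generalize finrank F (Cm (ρ x)) = J at *
    have d5 : J + u ^ 2 ≤ u ^ 2 * (r + r) :=
      Nat.le_of_mul_le_mul_left (c := r * r) (by nlinarith) (by positivity)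
    have d6 : b ^ 2 + 1 < r + r := Nat.lt_of_mul_lt_mul_left (a := u ^ 2) (by nlinarith)
    have d7 : 2 * b ≤ r := by nlinarith
    nlinarith
  left
  have hcop : (Nat.card Q).Coprime p := by
    obtain ⟨k, hk⟩ := hQ.exists_card_eq
    exact hk ▸ Nat.Coprime.pow_left _ ((Nat.coprime_primes hr hp).2 hrp)
  obtain ⟨m, m1, m2⟩ := h.cop_case hx hp ho hcop
  have m0 : m ^ 2 ≠ 0 := m1 ▸ (H16.relIndex_pos _ _).ne'
  have m3 : 2 ≤ m := by
    rcases m with _ | _ | m
    · simp at m0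
    · simp [m1] at s1
    · omega
  by_cases m4 : 4 ≤ m
  · rcases hp3 with rfl | h5
    · have d4 := three_le_Cm (T := a⁻¹ • ρ x) (by
        rw [smul_pow, ← map_pow, hxp, inv_pow, ha]; simp) _ hK
      rw [Cm_smul _ (inv_ne_zero a0)] at d4
      obtain ⟨d, hd⟩ := Nat.exists_eq_add_of_le (Submodule.finrank_le ((ρ x).eigenspace a))
      rw [hd, Nat.add_sub_cancel_left] at d4
      rw [hd] at hc ⊢
      obtain ⟨s, hs⟩ := Nat.exists_eq_add_of_le (show 16 ≤ sx Q x by nlinarith)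
      rw [hs] at hc
      generalize finrank F (Cm (ρ x)) = J at *
      generalize finrank F ((ρ x).eigenspace a) = j at *
      by_contra hj
      obtain ⟨e, rfl⟩ := Nat.exists_eq_add_of_lt (show d < j by omega)
      have := Nat.mul_le_mul_left (3 * (16 + s)) d4
      nlinarith [Nat.zero_le (s * d * d), Nat.zero_le (s * d * e), Nat.zero_le (s * e * e),
        Nat.zero_le (d * e), Nat.zero_le (e * e), Nat.zero_le (s * d), Nat.zero_le (s * e)]
    · exact (h.big hx hp hxp h5 (by nlinarith) a0 (hn a)).le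
  obtain rfl | rfl : m = 2 ∨ m = 3 := by omega
  · have d1 : C[C].relIndex C = C[Q].relIndex C := by
      rw [← inf_relIndex_right, ← inf_relIndex_right C[Q]]
      congr 1
      refine le_antisymm (le_inf (le_trans (le_inf (c3 ▸ le_inf (inf_le_right.trans
        (c1.trans inf_le_left)) inf_le_left) (inf_le_right.trans (c1.trans inf_le_right)))
        ((h.cop_le hx (ho ▸ hcop)).trans inf_le_right)) inf_le_right)
        (inf_le_inf_right _ (cent_anti (c1.trans inf_le_left)))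
    rw [← hD, ← d1, m1] at c2
    obtain ⟨u, hu⟩ : 2 ∣ finrank F V := Nat.prime_two.dvd_of_dvd_pow (n := 2)
      (c2 ▸ Dvd.dvd.mul_left (by decide) _)
    obtain ⟨b, hb⟩ := c5 u (by rw [hu] at c2; linarith)
    have := Submodule.finrank_lt (s := (ρ x).eigenspace a) fun e => hn a (LinearMap.ext fun v =>
      End.mem_eigenspace_iff.1 (e ▸ Submodule.mem_top))
    rw [hb, hu] at this ⊢
    have : b < 2 := by nlinarith
    nlinarith
  · exact absurd ((Nat.prime_dvd_prime_iff_eq hp Nat.prime_two).1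
      (hp.dvd_of_dvd_pow (n := 3) m2)) p2

end H12.Rb
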